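import Mathlib
import Cfsg.Agent.Lib.H07.CD.F78D
import Cfsg.Prelude.Def_Spor_Fi22

set_option autoImplicit false
set_option maxRecDepth 1000000

namespace Cfsg.Agent.H07.CD.F78
open Cfsg.Agent.H07.Z13 Cfsg.Spor

/-- The packed matrices of the generators. -/
def pk : Fi22.Gen → ℕ
  | .a => Ma
  | .b => Mb
  | .c => Mc
  | .d => Md
  | .e => Me
  | .f => Mf
  | .g => Mg
  | .h => Mh
  | .i => Mi

/-- The test that a nonempty word gives the identity. -/
def chkW : List Fi22.Gen → Bool
  | [] => false
  | x :: w => isIdP (foldP (pk x) (w.map pk))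

/-- The word of a Coxeter relator. -/
def cw (x y : Fi22.Gen) : List Fi22.Gen := (List.replicate (coxLabel Fi22.edges x y) [x, y]).flatten

theorem c_wf : ∀ x, wfC (pk x) = true := by
  intro x
  cases x <;> decide +kernel

end Cfsg.Agent.H07.CD.F78
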