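import Mathlib
import Cfsg.Agent.Lib.H07.CD.F78W

set_option autoImplicit false
set_option maxRecDepth 1000000

namespace Cfsg.Agent.H07.CD.F78
open Cfsg.Agent.H07.Z13 Cfsg.Spor

theorem c_e : ∀ y, chkW (cw .e y) = true := by
  intro y
  cases y <;> decide +kernel

end Cfsg.Agent.H07.CD.F78
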