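import Mathlib
import Cfsg.Agent.Lib.H07.CD.F78W

set_option autoImplicit false
set_option maxRecDepth 1000000

namespace Cfsg.Agent.H07.CD.F78
open Cfsg.Agent.H07.Z13 Cfsg.Spor

/-- The word of a further relator. -/
def w_r2 : List Fi22.Gen := [.a, .b, .c, .d, .e, .f, .h]

theorem c_r2 : chkW (List.replicate 9 w_r2).flatten = true := by decide +kernel

end Cfsg.Agent.H07.CD.F78
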