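import Mathlib
import Cfsg.Agent.Lib.H07.CD.F78Ca
import Cfsg.Agent.Lib.H07.CD.F78Cb
import Cfsg.Agent.Lib.H07.CD.F78Cc
import Cfsg.Agent.Lib.H07.CD.F78Cd
import Cfsg.Agent.Lib.H07.CD.F78Ce
import Cfsg.Agent.Lib.H07.CD.F78Cf
import Cfsg.Agent.Lib.H07.CD.F78Cg
import Cfsg.Agent.Lib.H07.CD.F78Ch
import Cfsg.Agent.Lib.H07.CD.F78Ci
import Cfsg.Agent.Lib.H07.CD.F78R1
import Cfsg.Agent.Lib.H07.CD.F78R2
import Cfsg.Agent.Lib.H07.CD.F78R3
import Cfsg.Agent.Lib.H07.CD.Fi22Final

set_option autoImplicit false
set_option maxRecDepth 100000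

namespace Cfsg.Agent.H07.CD.F78
open Cfsg.Agent.H07.Z13 Cfsg.Spor

noncomputable section

/-- The matrix of a generator. -/
def M (x : Fi22.Gen) : Matrix (Fin 78) (Fin 78) (ZMod 13) := mF (pk x)

theorem wf_pk (x : Fi22.Gen) : WF (pk x) := wf_of_wfC _ (c_wf x)

theorem prod_of_chk (w : List Fi22.Gen) (h : chkW w = true) : (w.map M).prod = 1 := by
  cases w with
  | nil => exact absurd h (by simp [chkW])
  | cons x w =>
    have h1 := (foldP_spec (pk x) (w.map pk) (wf_pk x) (by
      intro y hy
      obtain ⟨z, _, rfl⟩ := List.mem_map.mp hy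
      exact wf_pk z)).2
    have h2 : mF (foldP (pk x) (w.map pk)) = 1 := mF_of_isId _ h
    rw [h2, List.map_map] at h1
    rw [List.map_cons, List.prod_cons]
    exact h1.symm

theorem prod_rep (w : List Fi22.Gen) (n : ℕ) :
    ((List.replicate n w).flatten.map M).prod = ((w.map M).prod) ^ n := by
  induction n with
  | zero => simp
  | succ n ih =>
    rw [List.replicate_succ, List.flatten_cons, List.map_append, List.prod_append, ih, pow_succ']

theorem c_all (x y : Fi22.Gen) : chkW (cw x y) = true := by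
  cases x
  · exact c_a y
  · exact c_b y
  · exact c_c y
  · exact c_d y
  · exact c_e y
  · exact c_f y
  · exact c_g y
  · exact c_h y
  · exact c_i y

theorem hcox (x y : Fi22.Gen) : (M x * M y) ^ coxLabel Fi22.edges x y = 1 := by
  have h := prod_of_chk _ (c_all x y)
  unfold cw at h
  rw [prod_rep] at h
  simpa using h

theorem hsq (x : Fi22.Gen) : M x * M x = 1 := by
  have h := hcox x x
  have h1 : coxLabel Fi22.edges x x = 1 := by
    unfold coxLabel
    rw [if_pos rfl]
  rw [h1, pow_one] at h
  exact h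

/-- The unit of a generator. -/
def U (x : Fi22.Gen) : Matrix.GeneralLinearGroup (Fin 78) (ZMod 13) := ⟨M x, M x, hsq x, hsq x⟩

theorem val_U (x : Fi22.Gen) : ((U x : Matrix.GeneralLinearGroup (Fin 78) (ZMod 13)) : Matrix (Fin 78) (Fin 78) (ZMod 13)) = M x := rfl

theorem hrel : ∀ r ∈ (coxRelators Fi22.edges ∪ {r | r ∈ Fi22.extra}), FreeGroup.lift U r = 1 := by
  intro r hr
  rcases hr with hr | hr
  · obtain ⟨x, _, y, _, rfl⟩ := hr
    rw [map_pow, map_mul, FreeGroup.lift_apply_of, FreeGroup.lift_apply_of]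
    apply Units.ext
    rw [Units.val_pow_eq_pow_val, Units.val_mul, val_U, val_U, Units.val_one]
    exact hcox x y
  · have hr' : r ∈ Fi22.extra := hr
    simp only [Fi22.extra, List.mem_cons, List.not_mem_nil, or_false] at hr'
    have h1 := prod_of_chk _ c_r1
    have h2 := prod_of_chk _ c_r2
    have h3 := prod_of_chk _ c_r3
    rw [prod_rep] at h1 h2 h3
    simp only [w_r1, w_r2, w_r3, List.map_cons, List.map_nil, List.prod_cons, List.prod_nil, mul_one] at h1 h2 h3
    rcases hr' with rfl | rfl | rfl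
    · simp only [map_pow, map_mul, FreeGroup.lift_apply_of]
      apply Units.ext
      simp only [Units.val_pow_eq_pow_val, Units.val_mul, val_U, Units.val_one, mul_assoc]
      exact h1
    · simp only [map_pow, map_mul, FreeGroup.lift_apply_of]
      apply Units.ext
      simp only [Units.val_pow_eq_pow_val, Units.val_mul, val_U, Units.val_one, mul_assoc]
      exact h2
    · simp only [map_pow, map_mul, FreeGroup.lift_apply_of]
      apply Units.ext
      simp only [Units.val_pow_eq_pow_val, Units.val_mul, val_U, Units.val_one, mul_assoc]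
      exact h3

/-- The representation of degree 78 modulo 13. -/
def rep : Fi22 →* Matrix.GeneralLinearGroup (Fin 78) (ZMod 13) := PresentedGroup.toGroup hrel

theorem rep_inj : Function.Injective rep := by
  have hs : IsSimpleGroup Fi22 := Cfsg.Agent.H07.CD.Fi22Final.result.1
  rcases hs.eq_bot_or_eq_top_of_normal rep.ker inferInstance with h | h
  · exact (MonoidHom.ker_eq_bot_iff rep).mp h
  · exfalso
    have h1 : (PresentedGroup.of Fi22.Gen.a : Fi22) ∈ rep.ker := by
      rw [h]
      exact Subgroup.mem_top _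
    have h2 : U Fi22.Gen.a = 1 := by
      have h3 := MonoidHom.mem_ker.mp h1
      have h4 : rep (PresentedGroup.of Fi22.Gen.a) = U Fi22.Gen.a := PresentedGroup.toGroup.of hrel
      rw [← h4]
      exact h3
    have h5 : M Fi22.Gen.a = 1 := by
      have h6 := congrArg (fun u : Matrix.GeneralLinearGroup (Fin 78) (ZMod 13) => (u : Matrix (Fin 78) (Fin 78) (ZMod 13))) h2
      exact h6
    exact mF_ne_one Ma 0 9 (by norm_num) (by norm_num) (by norm_num) (by decide +kernel) (by decide +kernel) h5

end

end Cfsg.Agent.H07.CD.F78
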