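import Mathlib
import Cfsg.Agent.Lib.H07.CD.Fi22Final
import Cfsg.Agent.Lib.H07.TT3T
set_option autoImplicit false
set_option maxRecDepth 1000000
namespace Cfsg.Agent.H07.CD.Fi22Cl
open Cfsg.Agent.H07.Coset Cfsg.Agent.H07.SimpleT Cfsg.Agent.H07.TT3 Cfsg.Agent.H07.CD.Fi22T Cfsg.Spor
noncomputable section

/-- the word of the transposition -/
def wz : List ℕ := [0]

def ivs : List (ℕ × ℕ) := [(1, 2817), (2817, 3510)]

def W : ℕ × ℕ → List ℕ × List ℕ
  | (1, _) => ([1], [1])
  | (2817, _) => ([1,0,2,1], [1,2,0,1])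
  | _ => ([], [])

def Ew (iv : ℕ × ℕ) : List ℕ := (W iv).2 ++ wz ++ (W iv).1 ++ wz

def F_comm (i : ℕ) : Bool := SW.all (fun w => Nat.beq (walkR T w (walkR T wz i)) (walkR T wz (walkR T w i)))

def F_zz (i : ℕ) : Bool := Nat.beq (walkR T wz (walkR T wz i)) i

def F_w3 (i : ℕ) : Bool := ivs.all (fun iv => Nat.beq (walkR T (W iv).2 (walkR T (W iv).1 i)) i)

def F_2 (iv : ℕ × ℕ) (i : ℕ) : Bool := Nat.beq (walkR T (Ew iv) (walkR T (Ew iv) i)) i

def F_3 (iv : ℕ × ℕ) (i : ℕ) : Bool := Nat.beq (walkR T (Ew iv) (walkR T (Ew iv) (walkR T (Ew iv) i))) i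

theorem c_lt : (wz.all (fun y => Nat.blt y ncol) && ivs.all (fun iv => (W iv).1.all (fun y => Nat.blt y ncol) &&
    (W iv).2.all (fun y => Nat.blt y ncol) && Nat.beq (walkR T (W iv).1 0) iv.1)) = true := by decide +kernel

theorem c_comm : (List.range cn).all F_comm = true := by decide +kernel
theorem c_zz : (List.range cn).all F_zz = true := by decide +kernel
theorem c_w3 : (List.range cn).all F_w3 = true := by decide +kernel
theorem c_ord0 : (List.range cn).all (F_3 (1, 2817)) = true := by decide +kernel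
theorem c_mv0 : (Nat.blt 0 cn && !(Nat.beq (walkR T (Ew (1, 2817)) 0) 0)) = true := by decide +kernel
theorem c_ord1 : (List.range cn).all (F_2 (2817, 3510)) = true := by decide +kernel
theorem c_mv1 : (Nat.blt 1 cn && !(Nat.beq (walkR T (Ew (2817, 3510)) 1) 1)) = true := by decide +kernel
theorem c_i0 : (Nat.blt 1 cn && !(Nat.beq (walkR T wz 1) 1)) = true := by decide +kernel

theorem hlt0 : (∀ y ∈ wz, y < ncol) ∧ ∀ iv ∈ ivs, (∀ y ∈ (W iv).1, y < ncol) ∧ (∀ y ∈ (W iv).2, y < ncol) ∧
    walk T 0 (W iv).1 = iv.1 := by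
  have h := c_lt
  simp only [Bool.and_eq_true, List.all_eq_true] at h
  refine ⟨fun y hy => blt_lt (h.1 y hy), ?_⟩
  intro iv hiv
  obtain ⟨⟨h1, h2⟩, h3⟩ := h.2 iv hiv
  refine ⟨fun y hy => blt_lt (h1 y hy), fun y hy => blt_lt (h2 y hy), ?_⟩
  rw [walkR_eq] at h3
  exact Nat.eq_of_beq_eq_true h3

abbrev GG : Type := PresentedGroup rels

abbrev HH : Subgroup GG := (Subgroup.closure cS).map (PresentedGroup.mk rels)

instance : Finite GG := Cfsg.Agent.H07.CD.Fi22Final.hub.1

instance : IsSimpleGroup GG := Cfsg.Agent.H07.CD.Fi22Final.result.1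

theorem inj_rho : Function.Injective (rhoT tabRep.hb tabRep.hi tabRep.hrel) :=
  (card_and_inj (rhoT tabRep.hb tabRep.hi tabRep.hrel) Cfsg.Agent.H07.CD.Fi22Final.hub.2 card_lower).2

/-- The transposition. -/
def zz : GG := eltW rels letter wz

theorem main : Subgroup.centralizer ({zz} : Set GG) = HH ∧ Nat.card (conjugatesOf zz) = cn ∧
    Cfsg.IsThreeTranspositionClass (conjugatesOf zz) := by
  refine class_main tabRep hletter inj_rho htrans cS hSfix index_eq wz hlt0.1 ?_ ?_ ?_ ?_ ?_ ivs
    Cfsg.Agent.H07.CD.Fi22Final.hreach ?_ W (fun iv hiv => (hlt0.2 iv hiv).1) (fun iv hiv => (hlt0.2 iv hiv).2.1)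
    (fun iv hiv => (hlt0.2 iv hiv).2.2) ?_ ?_ ?_
  · intro s hs i hi
    have h := c_comm
    rw [List.all_eq_true] at h
    have h1 := h i (List.mem_range.mpr hi)
    unfold F_comm at h1
    rw [List.all_eq_true] at h1
    have h2 := h1 _ (hSW s hs).1
    rw [walkR_eq, walkR_eq, walkR_eq, walkR_eq] at h2
    exact Nat.eq_of_beq_eq_true h2
  · intro i hi
    have h := c_zz
    rw [List.all_eq_true] at h
    have h1 := h i (List.mem_range.mpr hi)
    unfold F_zz at h1
    rw [walkR_eq, walkR_eq] at h1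
    exact Nat.eq_of_beq_eq_true h1
  · exact 1
  · have h := c_i0
    simp only [Bool.and_eq_true] at h
    exact blt_lt h.1
  · have h := c_i0
    simp only [Bool.and_eq_true, Bool.not_eq_true'] at h
    intro h2
    have h3 := h.2
    rw [walkR_eq, h2] at h3
    have h4 : Nat.beq 1 1 = true := by decide
    rw [h4] at h3
    exact Bool.noConfusion h3
  · intro i
    by_cases h0 : i.1 = 0
    · exact Or.inl h0
    · right
      have h1 : i.1 < 3510 := i.2
      have h3 : i.1 < 2817 ∨ 2817 ≤ i.1 := Nat.lt_or_ge _ _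
      rcases h3 with h3 | h3
      · exact ⟨_, List.mem_cons_self, (by show 1 ≤ i.1; omega), h3⟩
      · exact ⟨_, List.mem_cons_of_mem _ List.mem_cons_self, h3, (by show i.1 < 3510; omega)⟩
  · intro iv hiv i hi
    have h := c_w3
    rw [List.all_eq_true] at h
    have h1 := h i (List.mem_range.mpr hi)
    unfold F_w3 at h1
    rw [List.all_eq_true] at h1
    have h2 := h1 iv hiv
    rw [walkR_eq, walkR_eq] at h2
    exact Nat.eq_of_beq_eq_true h2
  · intro iv hiv
    simp only [ivs, List.mem_cons, List.not_mem_nil, or_false] at hiv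
    rcases hiv with rfl|rfl
    · right
      intro i hi
      have h := c_ord0
      rw [List.all_eq_true] at h
      have h1 := h i (List.mem_range.mpr hi)
      unfold F_3 at h1
      rw [walkR_eq, walkR_eq, walkR_eq] at h1
      show walk T i ((Ew (1, 2817) ++ Ew (1, 2817)) ++ Ew (1, 2817)) = i
      rw [walk_append, walk_append]
      exact Nat.eq_of_beq_eq_true h1
    · left
      intro i hi
      have h := c_ord1
      rw [List.all_eq_true] at h
      have h1 := h i (List.mem_range.mpr hi)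
      unfold F_2 at h1
      rw [walkR_eq, walkR_eq] at h1
      show walk T i (Ew (2817, 3510) ++ Ew (2817, 3510)) = i
      rw [walk_append]
      exact Nat.eq_of_beq_eq_true h1
  · intro iv hiv
    simp only [ivs, List.mem_cons, List.not_mem_nil, or_false] at hiv
    rcases hiv with rfl|rfl
    · have h := c_mv0
      simp only [Bool.and_eq_true, Bool.not_eq_true'] at h
      refine ⟨0, blt_lt h.1, ?_⟩
      intro h2
      have h3 := h.2
      rw [walkR_eq] at h3
      change walk T 0 (Ew (1, 2817)) = 0 at h2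
      rw [h2] at h3
      have h4 : Nat.beq 0 0 = true := by decide
      rw [h4] at h3
      exact Bool.noConfusion h3
    · have h := c_mv1
      simp only [Bool.and_eq_true, Bool.not_eq_true'] at h
      refine ⟨1, blt_lt h.1, ?_⟩
      intro h2
      have h3 := h.2
      rw [walkR_eq] at h3
      change walk T 1 (Ew (2817, 3510)) = 1 at h2
      rw [h2] at h3
      have h4 : Nat.beq 1 1 = true := by decide
      rw [h4] at h3
      exact Bool.noConfusion h3

end

end Cfsg.Agent.H07.CD.Fi22Cl
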