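import Mathlib
import Cfsg.Agent.Lib.H07.CD.G24D
set_option autoImplicit false
set_option maxRecDepth 1000000
namespace Cfsg.Agent.H07.CD.G24
open Cfsg.Agent.H07.Coset Cfsg.Agent.H07.MatC Cfsg.Agent.H07.F4F Cfsg.Agent.H07.Ident Cfsg.Agent.H07.SimpleT Cfsg.Agent.H07.CD.SuzL1
noncomputable section

theorem c_tab_0 : allR (guard 4095 F_tab) 7 (0 * 2 ^ 7) = true := by decide +kernel
theorem c_tab_1 : allR (guard 4095 F_tab) 7 (1 * 2 ^ 7) = true := by decide +kernel
theorem c_tab_2 : allR (guard 4095 F_tab) 7 (2 * 2 ^ 7) = true := by decide +kernel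
theorem c_tab_3 : allR (guard 4095 F_tab) 7 (3 * 2 ^ 7) = true := by decide +kernel
theorem c_tab_4 : allR (guard 4095 F_tab) 7 (4 * 2 ^ 7) = true := by decide +kernel
theorem c_tab_5 : allR (guard 4095 F_tab) 7 (5 * 2 ^ 7) = true := by decide +kernel
theorem c_tab_6 : allR (guard 4095 F_tab) 7 (6 * 2 ^ 7) = true := by decide +kernel
theorem c_tab_7 : allR (guard 4095 F_tab) 7 (7 * 2 ^ 7) = true := by decide +kernel
theorem c_tab_8 : allR (guard 4095 F_tab) 7 (8 * 2 ^ 7) = true := by decide +kernel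
theorem c_tab_9 : allR (guard 4095 F_tab) 7 (9 * 2 ^ 7) = true := by decide +kernel
theorem c_tab_10 : allR (guard 4095 F_tab) 7 (10 * 2 ^ 7) = true := by decide +kernel
theorem c_tab_11 : allR (guard 4095 F_tab) 7 (11 * 2 ^ 7) = true := by decide +kernel
theorem c_tab_12 : allR (guard 4095 F_tab) 7 (12 * 2 ^ 7) = true := by decide +kernel

end

end Cfsg.Agent.H07.CD.G24
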