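import Mathlib
import Cfsg.Agent.Lib.H07.CD.G24D
set_option autoImplicit false
set_option maxRecDepth 1000000
namespace Cfsg.Agent.H07.CD.G24
open Cfsg.Agent.H07.Coset Cfsg.Agent.H07.MatC Cfsg.Agent.H07.F4F Cfsg.Agent.H07.Ident Cfsg.Agent.H07.SimpleT Cfsg.Agent.H07.CD.SuzL1
noncomputable section

theorem c_tab_13 : allR (guard 4095 F_tab) 7 (13 * 2 ^ 7) = true := by decide +kernel
theorem c_tab_14 : allR (guard 4095 F_tab) 7 (14 * 2 ^ 7) = true := by decide +kernel
theorem c_tab_15 : allR (guard 4095 F_tab) 7 (15 * 2 ^ 7) = true := by decide +kernel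
theorem c_tab_16 : allR (guard 4095 F_tab) 7 (16 * 2 ^ 7) = true := by decide +kernel
theorem c_tab_17 : allR (guard 4095 F_tab) 7 (17 * 2 ^ 7) = true := by decide +kernel
theorem c_tab_18 : allR (guard 4095 F_tab) 7 (18 * 2 ^ 7) = true := by decide +kernel
theorem c_tab_19 : allR (guard 4095 F_tab) 7 (19 * 2 ^ 7) = true := by decide +kernel
theorem c_tab_20 : allR (guard 4095 F_tab) 7 (20 * 2 ^ 7) = true := by decide +kernel
theorem c_tab_21 : allR (guard 4095 F_tab) 7 (21 * 2 ^ 7) = true := by decide +kernel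
theorem c_tab_22 : allR (guard 4095 F_tab) 7 (22 * 2 ^ 7) = true := by decide +kernel
theorem c_tab_23 : allR (guard 4095 F_tab) 7 (23 * 2 ^ 7) = true := by decide +kernel
theorem c_tab_24 : allR (guard 4095 F_tab) 7 (24 * 2 ^ 7) = true := by decide +kernel
theorem c_tab_25 : allR (guard 4095 F_tab) 7 (25 * 2 ^ 7) = true := by decide +kernel

end

end Cfsg.Agent.H07.CD.G24
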