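import Mathlib
import Cfsg.Agent.Lib.H07.CD.G24D
set_option autoImplicit false
set_option maxRecDepth 1000000
namespace Cfsg.Agent.H07.CD.G24
open Cfsg.Agent.H07.Coset Cfsg.Agent.H07.MatC Cfsg.Agent.H07.F4F Cfsg.Agent.H07.Ident Cfsg.Agent.H07.SimpleT Cfsg.Agent.H07.CD.SuzL1
noncomputable section

theorem c_tab_26 : allR (guard 4095 F_tab) 7 (26 * 2 ^ 7) = true := by decide +kernel
theorem c_tab_27 : allR (guard 4095 F_tab) 7 (27 * 2 ^ 7) = true := by decide +kernel
theorem c_tab_28 : allR (guard 4095 F_tab) 7 (28 * 2 ^ 7) = true := by decide +kernel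
theorem c_tab_29 : allR (guard 4095 F_tab) 7 (29 * 2 ^ 7) = true := by decide +kernel
theorem c_tab_30 : allR (guard 4095 F_tab) 7 (30 * 2 ^ 7) = true := by decide +kernel
theorem c_tab_31 : allR (guard 4095 F_tab) 7 (31 * 2 ^ 7) = true := by decide +kernel
theorem c_misc_0 : allR (guard 4095 F_misc) 12 (0 * 2 ^ 12) = true := by decide +kernel
theorem c_rel_0 : allR (guard 4095 F_rel) 8 (0 * 2 ^ 8) = true := by decide +kernel
theorem c_rel_1 : allR (guard 4095 F_rel) 8 (1 * 2 ^ 8) = true := by decide +kernel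
theorem c_rel_2 : allR (guard 4095 F_rel) 8 (2 * 2 ^ 8) = true := by decide +kernel
theorem c_rel_3 : allR (guard 4095 F_rel) 8 (3 * 2 ^ 8) = true := by decide +kernel
theorem c_rel_4 : allR (guard 4095 F_rel) 8 (4 * 2 ^ 8) = true := by decide +kernel

end

end Cfsg.Agent.H07.CD.G24
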