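import Mathlib
import Cfsg.Agent.Lib.H07.CD.G24D
set_option autoImplicit false
set_option maxRecDepth 1000000
namespace Cfsg.Agent.H07.CD.G24
open Cfsg.Agent.H07.Coset Cfsg.Agent.H07.MatC Cfsg.Agent.H07.F4F Cfsg.Agent.H07.Ident Cfsg.Agent.H07.SimpleT Cfsg.Agent.H07.CD.SuzL1
noncomputable section

theorem c_rel_5 : allR (guard 4095 F_rel) 8 (5 * 2 ^ 8) = true := by decide +kernel
theorem c_rel_6 : allR (guard 4095 F_rel) 8 (6 * 2 ^ 8) = true := by decide +kernel
theorem c_rel_7 : allR (guard 4095 F_rel) 8 (7 * 2 ^ 8) = true := by decide +kernel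
theorem c_rel_8 : allR (guard 4095 F_rel) 8 (8 * 2 ^ 8) = true := by decide +kernel
theorem c_rel_9 : allR (guard 4095 F_rel) 8 (9 * 2 ^ 8) = true := by decide +kernel
theorem c_rel_10 : allR (guard 4095 F_rel) 8 (10 * 2 ^ 8) = true := by decide +kernel
theorem c_rel_11 : allR (guard 4095 F_rel) 8 (11 * 2 ^ 8) = true := by decide +kernel
theorem c_rel_12 : allR (guard 4095 F_rel) 8 (12 * 2 ^ 8) = true := by decide +kernel
theorem c_rel_13 : allR (guard 4095 F_rel) 8 (13 * 2 ^ 8) = true := by decide +kernel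
theorem c_rel_14 : allR (guard 4095 F_rel) 8 (14 * 2 ^ 8) = true := by decide +kernel
theorem c_rel_15 : allR (guard 4095 F_rel) 8 (15 * 2 ^ 8) = true := by decide +kernel
theorem c_chk_0 : allR (guard 39 F_chk) 1 (0 * 2 ^ 1) = true := by decide +kernel
theorem c_chk_1 : allR (guard 39 F_chk) 1 (1 * 2 ^ 1) = true := by decide +kernel
theorem c_chk_2 : allR (guard 39 F_chk) 1 (2 * 2 ^ 1) = true := by decide +kernel
theorem c_chk_3 : allR (guard 39 F_chk) 1 (3 * 2 ^ 1) = true := by decide +kernel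
theorem c_chk_4 : allR (guard 39 F_chk) 1 (4 * 2 ^ 1) = true := by decide +kernel
theorem c_chk_5 : allR (guard 39 F_chk) 1 (5 * 2 ^ 1) = true := by decide +kernel
theorem c_chk_6 : allR (guard 39 F_chk) 1 (6 * 2 ^ 1) = true := by decide +kernel
theorem c_chk_7 : allR (guard 39 F_chk) 1 (7 * 2 ^ 1) = true := by decide +kernel
theorem c_chk_8 : allR (guard 39 F_chk) 1 (8 * 2 ^ 1) = true := by decide +kernel
theorem c_chk_9 : allR (guard 39 F_chk) 1 (9 * 2 ^ 1) = true := by decide +kernel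
theorem c_chk_10 : allR (guard 39 F_chk) 1 (10 * 2 ^ 1) = true := by decide +kernel
theorem c_chk_11 : allR (guard 39 F_chk) 1 (11 * 2 ^ 1) = true := by decide +kernel
theorem c_chk_12 : allR (guard 39 F_chk) 1 (12 * 2 ^ 1) = true := by decide +kernel

end

end Cfsg.Agent.H07.CD.G24
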