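import Mathlib
import Cfsg.Agent.Lib.H07.CD.G24D
set_option autoImplicit false
set_option maxRecDepth 1000000
namespace Cfsg.Agent.H07.CD.G24
open Cfsg.Agent.H07.Coset Cfsg.Agent.H07.MatC Cfsg.Agent.H07.F4F Cfsg.Agent.H07.Ident Cfsg.Agent.H07.SimpleT Cfsg.Agent.H07.CD.SuzL1
noncomputable section

theorem c_chk_13 : allR (guard 39 F_chk) 1 (13 * 2 ^ 1) = true := by decide +kernel
theorem c_chk_14 : allR (guard 39 F_chk) 1 (14 * 2 ^ 1) = true := by decide +kernel
theorem c_chk_15 : allR (guard 39 F_chk) 1 (15 * 2 ^ 1) = true := by decide +kernel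
theorem c_chk_16 : allR (guard 39 F_chk) 1 (16 * 2 ^ 1) = true := by decide +kernel
theorem c_chk_17 : allR (guard 39 F_chk) 1 (17 * 2 ^ 1) = true := by decide +kernel
theorem c_chk_18 : allR (guard 39 F_chk) 1 (18 * 2 ^ 1) = true := by decide +kernel
theorem c_chk_19 : allR (guard 39 F_chk) 1 (19 * 2 ^ 1) = true := by decide +kernel
theorem c_root_0 : allR (guard 48 F_root) 1 (0 * 2 ^ 1) = true := by decide +kernel
theorem c_root_1 : allR (guard 48 F_root) 1 (1 * 2 ^ 1) = true := by decide +kernel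
theorem c_root_2 : allR (guard 48 F_root) 1 (2 * 2 ^ 1) = true := by decide +kernel
theorem c_root_3 : allR (guard 48 F_root) 1 (3 * 2 ^ 1) = true := by decide +kernel
theorem c_root_4 : allR (guard 48 F_root) 1 (4 * 2 ^ 1) = true := by decide +kernel
theorem c_root_5 : allR (guard 48 F_root) 1 (5 * 2 ^ 1) = true := by decide +kernel
theorem c_root_6 : allR (guard 48 F_root) 1 (6 * 2 ^ 1) = true := by decide +kernel
theorem c_root_7 : allR (guard 48 F_root) 1 (7 * 2 ^ 1) = true := by decide +kernel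
theorem c_root_8 : allR (guard 48 F_root) 1 (8 * 2 ^ 1) = true := by decide +kernel
theorem c_root_9 : allR (guard 48 F_root) 1 (9 * 2 ^ 1) = true := by decide +kernel
theorem c_root_10 : allR (guard 48 F_root) 1 (10 * 2 ^ 1) = true := by decide +kernel
theorem c_root_11 : allR (guard 48 F_root) 1 (11 * 2 ^ 1) = true := by decide +kernel
theorem c_root_12 : allR (guard 48 F_root) 1 (12 * 2 ^ 1) = true := by decide +kernel

end

end Cfsg.Agent.H07.CD.G24
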