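import Mathlib
import Cfsg.Agent.Lib.H07.CD.G24D
set_option autoImplicit false
set_option maxRecDepth 1000000
namespace Cfsg.Agent.H07.CD.G24
open Cfsg.Agent.H07.Coset Cfsg.Agent.H07.MatC Cfsg.Agent.H07.F4F Cfsg.Agent.H07.Ident Cfsg.Agent.H07.SimpleT Cfsg.Agent.H07.CD.SuzL1
noncomputable section

theorem c_root_13 : allR (guard 48 F_root) 1 (13 * 2 ^ 1) = true := by decide +kernel
theorem c_root_14 : allR (guard 48 F_root) 1 (14 * 2 ^ 1) = true := by decide +kernel
theorem c_root_15 : allR (guard 48 F_root) 1 (15 * 2 ^ 1) = true := by decide +kernel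
theorem c_root_16 : allR (guard 48 F_root) 1 (16 * 2 ^ 1) = true := by decide +kernel
theorem c_root_17 : allR (guard 48 F_root) 1 (17 * 2 ^ 1) = true := by decide +kernel
theorem c_root_18 : allR (guard 48 F_root) 1 (18 * 2 ^ 1) = true := by decide +kernel
theorem c_root_19 : allR (guard 48 F_root) 1 (19 * 2 ^ 1) = true := by decide +kernel
theorem c_root_20 : allR (guard 48 F_root) 1 (20 * 2 ^ 1) = true := by decide +kernel
theorem c_root_21 : allR (guard 48 F_root) 1 (21 * 2 ^ 1) = true := by decide +kernel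
theorem c_root_22 : allR (guard 48 F_root) 1 (22 * 2 ^ 1) = true := by decide +kernel
theorem c_root_23 : allR (guard 48 F_root) 1 (23 * 2 ^ 1) = true := by decide +kernel
theorem c_xinv_0 : allR (guard 48 F_xinv) 6 (0 * 2 ^ 6) = true := by decide +kernel
theorem c_lvl0_0 : allR (guard 1024 (lvlOK T4 wordS levS E0 1024 cJ cn4 0 3071)) 11 (0 * 2 ^ 11) = true := by decide +kernel
theorem c_lvl1_0 : allR (guard 60 (lvlOK T4 wordS levS E1 60 cJ cn4 1 3188)) 6 (0 * 2 ^ 6) = true := by decide +kernel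

end

end Cfsg.Agent.H07.CD.G24
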