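import Mathlib
import Cfsg.Agent.Lib.H07.CD.G24D
set_option autoImplicit false
set_option maxRecDepth 1000000
namespace Cfsg.Agent.H07.CD.G24
open Cfsg.Agent.H07.Coset Cfsg.Agent.H07.MatC Cfsg.Agent.H07.F4F Cfsg.Agent.H07.Ident Cfsg.Agent.H07.SimpleT Cfsg.Agent.H07.CD.SuzL1
noncomputable section


/-- the indices -/
def eI : Cfsg.Lie.chevG2.Idx ≃ Fin 14 := finSumFinEquiv

/-- the root matrices -/
def PX (r : Fin 12) (t : F4) (u v : Cfsg.Lie.chevG2.Idx) : Prop :=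
  Cfsg.Lie.chevG2.xMat F4 r t u v = dec4 (rd 2 (xCi (r.1 * 4 + t.val.1)) ((eI u).1 * 14 + (eI v).1))

instance (r : Fin 12) (t : F4) (u v : Cfsg.Lie.chevG2.Idx) : Decidable (PX r t u v) := instDecidableEqF4 _ _

theorem c_x_0 : ∀ (t : F4) (u v : Cfsg.Lie.chevG2.Idx), PX (⟨0, by decide⟩ : Fin 12) t u v := by decide +kernel
theorem c_x_1 : ∀ (t : F4) (u v : Cfsg.Lie.chevG2.Idx), PX (⟨1, by decide⟩ : Fin 12) t u v := by decide +kernel
theorem c_x_2 : ∀ (t : F4) (u v : Cfsg.Lie.chevG2.Idx), PX (⟨2, by decide⟩ : Fin 12) t u v := by decide +kernel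
theorem c_x_3 : ∀ (t : F4) (u v : Cfsg.Lie.chevG2.Idx), PX (⟨3, by decide⟩ : Fin 12) t u v := by decide +kernel
theorem c_x_4 : ∀ (t : F4) (u v : Cfsg.Lie.chevG2.Idx), PX (⟨4, by decide⟩ : Fin 12) t u v := by decide +kernel
theorem c_x_5 : ∀ (t : F4) (u v : Cfsg.Lie.chevG2.Idx), PX (⟨5, by decide⟩ : Fin 12) t u v := by decide +kernel
theorem c_x_6 : ∀ (t : F4) (u v : Cfsg.Lie.chevG2.Idx), PX (⟨6, by decide⟩ : Fin 12) t u v := by decide +kernel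
theorem c_x_7 : ∀ (t : F4) (u v : Cfsg.Lie.chevG2.Idx), PX (⟨7, by decide⟩ : Fin 12) t u v := by decide +kernel
theorem c_x_8 : ∀ (t : F4) (u v : Cfsg.Lie.chevG2.Idx), PX (⟨8, by decide⟩ : Fin 12) t u v := by decide +kernel
theorem c_x_9 : ∀ (t : F4) (u v : Cfsg.Lie.chevG2.Idx), PX (⟨9, by decide⟩ : Fin 12) t u v := by decide +kernel
theorem c_x_10 : ∀ (t : F4) (u v : Cfsg.Lie.chevG2.Idx), PX (⟨10, by decide⟩ : Fin 12) t u v := by decide +kernel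
theorem c_x_11 : ∀ (t : F4) (u v : Cfsg.Lie.chevG2.Idx), PX (⟨11, by decide⟩ : Fin 12) t u v := by decide +kernel

end

end Cfsg.Agent.H07.CD.G24
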