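import Mathlib
import Cfsg.Agent.Lib.H07.CD.Suz1782GD
set_option autoImplicit false
set_option maxRecDepth 1000000
namespace Cfsg.Agent.H07.CD.Suz1782
open Cfsg.Agent.H07.Coset Cfsg.Agent.H07.SimpleT Cfsg.Spor
noncomputable section
theorem c_lvl0_0 : allR (guard 1365 (lvlOK T wordS levS E0 1365 cJ cn 0 1)) 11 (0 * 2 ^ 11) = true := by decide +kernel
theorem c_lvl1_0 : allR (guard 1024 (lvlOK T wordS levS E1 1024 cJ cn 1 2)) 11 (0 * 2 ^ 11) = true := by decide +kernel
theorem c_lvl2_0 : allR (guard 180 (lvlOK T wordS levS E2 180 cJ cn 2 279)) 8 (0 * 2 ^ 8) = true := by decide +kernel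
theorem c_xp_0 : allR (guard cn (fun i => Nat.beq (powW T xW 11 i) i)) 11 (0 * 2 ^ 11) = true := by decide +kernel

end

end Cfsg.Agent.H07.CD.Suz1782
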