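import Mathlib
import Cfsg.Agent.Lib.H07.CD.Suz1782GD
import Cfsg.Agent.Lib.H07.CD.Suz1782GC0
import Cfsg.Agent.Lib.H07.CD.SuzX
set_option autoImplicit false
set_option maxRecDepth 1000000
namespace Cfsg.Agent.H07.CD.Suz1782
open Cfsg.Agent.H07.Coset Cfsg.Agent.H07.SimpleT Cfsg.Spor
noncomputable section
theorem hs_lvl0 : ∀ k, k < 1365 → (lvlOK T wordS levS E0 1365 cJ cn 0 1) k = true :=
  guard_specM (d := 11) (m := 1) (by decide) (by
  intro j hj
  interval_cases j
  · exact c_lvl0_0)

theorem hs_lvl1 : ∀ k, k < 1024 → (lvlOK T wordS levS E1 1024 cJ cn 1 2) k = true :=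
  guard_specM (d := 11) (m := 1) (by decide) (by
  intro j hj
  interval_cases j
  · exact c_lvl1_0)

theorem hs_lvl2 : ∀ k, k < 180 → (lvlOK T wordS levS E2 180 cJ cn 2 279) k = true :=
  guard_specM (d := 8) (m := 1) (by decide) (by
  intro j hj
  interval_cases j
  · exact c_lvl2_0)

theorem hs_xp : ∀ i, i < cn → Nat.beq (powW T xW 11 i) i = true :=
  guard_specM (d := 11) (m := 1) (by decide) (by
  intro j hj
  interval_cases j
  · exact c_xp_0)


theorem c_w : allR (guard cJ (fun j => (wordS j).all (fun y => Nat.blt y ncol))) 5 0 = true := by decide +kernel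
theorem c_0 : allR (guard cJ (fun j => Nat.beq (walkR T (wordS j) 0) 0)) 5 0 = true := by decide +kernel
theorem c_fix : (List.range cL).all (fun i => (List.range cJ).all (fun j =>
    !(Nat.ble (i + 1) (levS j)) || Nat.beq (walkR T (wordS j) (baseS i)) (baseS i))) = true := by decide +kernel
theorem c_base : (List.range cL).all (fun i => Nat.blt (baseS i) cn) = true := by decide +kernel
theorem c_prod : 448345497600 = cn * ∏ i ∈ Finset.range cL, szS i := by decide +kernel

theorem htrans : ∀ i : Fin cn, ∃ g, rhoT tabRep.hb tabRep.hi tabRep.hrel g 0 = i :=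
  rhoT_trans' tabRep.hb tabRep.hi tabRep.hrel hdesc

theorem card_lower : 448345497600 ≤ Nat.card (rhoT tabRep.hb tabRep.hi tabRep.hrel).range := by
  rw [c_prod]
  refine sgs_lower (ncol := ncol) (letter := letter) tabRep hletter wordS levS cJ cL baseS szS ES htrans ?_ ?_ ?_ ?_ ?_
  · intro j hj y hy
    have h1 := guard_spec (by decide) c_w j hj
    rw [List.all_eq_true] at h1
    exact blt_lt (h1 y hy)
  · intro j hj
    have h1 := guard_spec (by decide) c_0 j hj
    rw [walkR_eq] at h1
    exact Nat.eq_of_beq_eq_true h1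
  · intro i hi
    have h := c_base
    rw [List.all_eq_true] at h
    exact blt_lt (h i (List.mem_range.mpr hi))
  · intro i hi j hj hl
    have h := c_fix
    rw [List.all_eq_true] at h
    have h1 := h i (List.mem_range.mpr hi)
    rw [List.all_eq_true] at h1
    have h2 := h1 j (List.mem_range.mpr hj)
    have h3 : Nat.ble (i + 1) (levS j) = true := Nat.ble_eq_true_of_le hl
    rw [h3] at h2
    simp only [Bool.not_true, Bool.false_or] at h2
    rw [walkR_eq] at h2
    exact Nat.eq_of_beq_eq_true h2
  · intro i hi k hk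
    interval_cases i
    · exact hs_lvl0 k hk
    · exact hs_lvl1 k hk
    · exact hs_lvl2 k hk

theorem c_xW : xW = wordOf col SuzX.xF.toWord := by decide +kernel

end

end Cfsg.Agent.H07.CD.Suz1782
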