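import Mathlib
import Cfsg.Agent.Lib.H07.CD.G24D
import Cfsg.Agent.Lib.H07.CD.G24C0
import Cfsg.Agent.Lib.H07.CD.G24C1
import Cfsg.Agent.Lib.H07.CD.G24C2
import Cfsg.Agent.Lib.H07.CD.G24C3
import Cfsg.Agent.Lib.H07.CD.G24C4
import Cfsg.Agent.Lib.H07.CD.G24C5
import Cfsg.Agent.Lib.H07.CD.G24X
import Cfsg.Agent.Lib.H07.CD.SuzFinal
import Cfsg.Agent.Lib.H07.CD.SuzL2
import Cfsg.Agent.Lib.H07.CD.SuzL3
import Cfsg.Agent.Lib.H07.CD.SuzL4
import Cfsg.Agent.Lib.H07.SimpleT2
set_option autoImplicit false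
set_option maxRecDepth 1000000
namespace Cfsg.Agent.H07.CD.G24
open Cfsg.Agent.H07.Coset Cfsg.Agent.H07.MatC Cfsg.Agent.H07.F4F Cfsg.Agent.H07.Ident Cfsg.Agent.H07.SimpleT Cfsg.Agent.H07.CD.SuzL1 Cfsg.Agent.H07.CD Cfsg.Spor
noncomputable section

theorem hs_tab : ∀ i, i < 4095 → F_tab i = true :=
  guard_specM (d := 7) (m := 32) (by decide) (by
  intro j hj
  interval_cases j
  · exact c_tab_0
  · exact c_tab_1
  · exact c_tab_2
  · exact c_tab_3
  · exact c_tab_4
  · exact c_tab_5
  · exact c_tab_6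
  · exact c_tab_7
  · exact c_tab_8
  · exact c_tab_9
  · exact c_tab_10
  · exact c_tab_11
  · exact c_tab_12
  · exact c_tab_13
  · exact c_tab_14
  · exact c_tab_15
  · exact c_tab_16
  · exact c_tab_17
  · exact c_tab_18
  · exact c_tab_19
  · exact c_tab_20
  · exact c_tab_21
  · exact c_tab_22
  · exact c_tab_23
  · exact c_tab_24
  · exact c_tab_25
  · exact c_tab_26
  · exact c_tab_27
  · exact c_tab_28
  · exact c_tab_29
  · exact c_tab_30
  · exact c_tab_31)

theorem hs_misc : ∀ i, i < 4095 → F_misc i = true :=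
  guard_specM (d := 12) (m := 1) (by decide) (by
  intro j hj
  interval_cases j
  · exact c_misc_0)

theorem hs_rel : ∀ i, i < 4095 → F_rel i = true :=
  guard_specM (d := 8) (m := 16) (by decide) (by
  intro j hj
  interval_cases j
  · exact c_rel_0
  · exact c_rel_1
  · exact c_rel_2
  · exact c_rel_3
  · exact c_rel_4
  · exact c_rel_5
  · exact c_rel_6
  · exact c_rel_7
  · exact c_rel_8
  · exact c_rel_9
  · exact c_rel_10
  · exact c_rel_11
  · exact c_rel_12
  · exact c_rel_13
  · exact c_rel_14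
  · exact c_rel_15)

theorem hs_chk : ∀ i, i < 39 → F_chk i = true :=
  guard_specM (d := 1) (m := 20) (by decide) (by
  intro j hj
  interval_cases j
  · exact c_chk_0
  · exact c_chk_1
  · exact c_chk_2
  · exact c_chk_3
  · exact c_chk_4
  · exact c_chk_5
  · exact c_chk_6
  · exact c_chk_7
  · exact c_chk_8
  · exact c_chk_9
  · exact c_chk_10
  · exact c_chk_11
  · exact c_chk_12
  · exact c_chk_13
  · exact c_chk_14
  · exact c_chk_15
  · exact c_chk_16
  · exact c_chk_17
  · exact c_chk_18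
  · exact c_chk_19)

theorem hs_root : ∀ i, i < 48 → F_root i = true :=
  guard_specM (d := 1) (m := 24) (by decide) (by
  intro j hj
  interval_cases j
  · exact c_root_0
  · exact c_root_1
  · exact c_root_2
  · exact c_root_3
  · exact c_root_4
  · exact c_root_5
  · exact c_root_6
  · exact c_root_7
  · exact c_root_8
  · exact c_root_9
  · exact c_root_10
  · exact c_root_11
  · exact c_root_12
  · exact c_root_13
  · exact c_root_14
  · exact c_root_15
  · exact c_root_16
  · exact c_root_17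
  · exact c_root_18
  · exact c_root_19
  · exact c_root_20
  · exact c_root_21
  · exact c_root_22
  · exact c_root_23)

theorem hs_xinv : ∀ i, i < 48 → F_xinv i = true :=
  guard_specM (d := 6) (m := 1) (by decide) (by
  intro j hj
  interval_cases j
  · exact c_xinv_0)

theorem hs_lvl0 : ∀ i, i < 1024 → (lvlOK T4 wordS levS E0 1024 cJ cn4 0 3071) i = true :=
  guard_specM (d := 11) (m := 1) (by decide) (by
  intro j hj
  interval_cases j
  · exact c_lvl0_0)

theorem hs_lvl1 : ∀ i, i < 60 → (lvlOK T4 wordS levS E1 60 cJ cn4 1 3188) i = true :=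
  guard_specM (d := 6) (m := 1) (by decide) (by
  intro j hj
  interval_cases j
  · exact c_lvl1_0)

abbrev PP : Type := PresentedGroup rels

def iota_SuzL2 : SuzL2.LP.Gen → LP.Gen
  | .a => .a
  | .b => .b
  | .c => .c
  | .d => .d
  | .e => .e

def phi_SuzL2 (x : SuzL2.LP.Gen) : PP := PresentedGroup.of (iota_SuzL2 x)

theorem c_extra_SuzL2 : SuzL2.LP.extra.all (fun r => LP.extra.contains (FreeGroup.map iota_SuzL2 r)) = true := by decide +kernel

theorem hphi_SuzL2 : ∀ r ∈ SuzL2.rels, FreeGroup.lift phi_SuzL2 r = 1 :=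
  Cfsg.Agent.H07.SimpleT.lift_relators iota_SuzL2 (by decide) (by decide) (by
    intro r hr
    have h := c_extra_SuzL2
    rw [List.all_eq_true] at h
    simpa using h r hr)

def iota_SuzL3 : SuzL3.LP.Gen → LP.Gen
  | .a => .a
  | .b => .b
  | .c => .c
  | .d => .d

def phi_SuzL3 (x : SuzL3.LP.Gen) : PP := PresentedGroup.of (iota_SuzL3 x)

theorem c_extra_SuzL3 : SuzL3.LP.extra.all (fun r => LP.extra.contains (FreeGroup.map iota_SuzL3 r)) = true := by decide +kernel

theorem hphi_SuzL3 : ∀ r ∈ SuzL3.rels, FreeGroup.lift phi_SuzL3 r = 1 :=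
  Cfsg.Agent.H07.SimpleT.lift_relators iota_SuzL3 (by decide) (by decide) (by
    intro r hr
    have h := c_extra_SuzL3
    rw [List.all_eq_true] at h
    simpa using h r hr)

def iota_SuzL4 : SuzL4.LP.Gen → LP.Gen
  | .a => .a
  | .b => .b
  | .d => .d

def phi_SuzL4 (x : SuzL4.LP.Gen) : PP := PresentedGroup.of (iota_SuzL4 x)

theorem c_extra_SuzL4 : SuzL4.LP.extra.all (fun r => LP.extra.contains (FreeGroup.map iota_SuzL4 r)) = true := by decide +kernel

theorem hphi_SuzL4 : ∀ r ∈ SuzL4.rels, FreeGroup.lift phi_SuzL4 r = 1 :=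
  Cfsg.Agent.H07.SimpleT.lift_relators iota_SuzL4 (by decide) (by decide) (by
    intro r hr
    have h := c_extra_SuzL4
    rw [List.all_eq_true] at h
    simpa using h r hr)

theorem hub : Finite PP ∧ Nat.card PP ≤ 251596800 := by
  have h2 := level_bound phi_SuzL4 hphi_SuzL4 SuzL4.hup (⊥ : Subgroup PP) (by
    intro s hs
    exact absurd hs (Set.notMem_empty s))
  haveI := h2.1
  have c2 := h2.2
  rw [Subgroup.card_bot, Nat.mul_one] at c2
  have h1 := level_bound phi_SuzL3 hphi_SuzL3 SuzL3.hup (Subgroup.closure (Set.range phi_SuzL4)) (by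
    intro s hs
    simp only [SuzL3.cS, Set.mem_insert_iff, Set.mem_singleton_iff] at hs
    rcases hs with rfl|rfl|rfl
    · rw [show SuzL3.LP.a = FreeGroup.of SuzL3.LP.Gen.a from rfl, FreeGroup.lift_apply_of]
      exact Subgroup.subset_closure ⟨.a, rfl⟩
    · rw [show SuzL3.LP.b = FreeGroup.of SuzL3.LP.Gen.b from rfl, FreeGroup.lift_apply_of]
      exact Subgroup.subset_closure ⟨.b, rfl⟩
    · rw [show SuzL3.LP.d = FreeGroup.of SuzL3.LP.Gen.d from rfl, FreeGroup.lift_apply_of]
      exact Subgroup.subset_closure ⟨.d, rfl⟩)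
  haveI := h1.1
  have c1 := le_trans h1.2 (Nat.mul_le_mul_left _ c2)
  have h0 := level_bound phi_SuzL2 hphi_SuzL2 SuzL2.hup (Subgroup.closure (Set.range phi_SuzL3)) (by
    intro s hs
    simp only [SuzL2.cS, Set.mem_insert_iff, Set.mem_singleton_iff] at hs
    rcases hs with rfl|rfl|rfl|rfl
    · rw [show SuzL2.LP.a = FreeGroup.of SuzL2.LP.Gen.a from rfl, FreeGroup.lift_apply_of]
      exact Subgroup.subset_closure ⟨.a, rfl⟩
    · rw [show SuzL2.LP.b = FreeGroup.of SuzL2.LP.Gen.b from rfl, FreeGroup.lift_apply_of]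
      exact Subgroup.subset_closure ⟨.b, rfl⟩
    · rw [show SuzL2.LP.c = FreeGroup.of SuzL2.LP.Gen.c from rfl, FreeGroup.lift_apply_of]
      exact Subgroup.subset_closure ⟨.c, rfl⟩
    · rw [show SuzL2.LP.d = FreeGroup.of SuzL2.LP.Gen.d from rfl, FreeGroup.lift_apply_of]
      exact Subgroup.subset_closure ⟨.d, rfl⟩)
  haveI := h0.1
  have c0 := le_trans h0.2 (Nat.mul_le_mul_left _ c1)
  have ht := level_bound (fun x => (PresentedGroup.of x : PP)) (lift_top _) hup (Subgroup.closure (Set.range phi_SuzL2)) (by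
    intro s hs
    simp only [cS, Set.mem_insert_iff, Set.mem_singleton_iff] at hs
    rcases hs with rfl|rfl|rfl|rfl|rfl
    · rw [show LP.a = FreeGroup.of LP.Gen.a from rfl, FreeGroup.lift_apply_of]
      exact Subgroup.subset_closure ⟨.a, rfl⟩
    · rw [show LP.b = FreeGroup.of LP.Gen.b from rfl, FreeGroup.lift_apply_of]
      exact Subgroup.subset_closure ⟨.b, rfl⟩
    · rw [show LP.c = FreeGroup.of LP.Gen.c from rfl, FreeGroup.lift_apply_of]
      exact Subgroup.subset_closure ⟨.c, rfl⟩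
    · rw [show LP.d = FreeGroup.of LP.Gen.d from rfl, FreeGroup.lift_apply_of]
      exact Subgroup.subset_closure ⟨.d, rfl⟩
    · rw [show LP.e = FreeGroup.of LP.Gen.e from rfl, FreeGroup.lift_apply_of]
      exact Subgroup.subset_closure ⟨.e, rfl⟩)
  have ct := le_trans ht.2 (Nat.mul_le_mul_left _ c0)
  have hf := top_of_level _ ⟨ht.1, ct⟩
  exact ⟨hf.1, le_trans hf.2 (by decide)⟩

abbrev E4 := enc4

theorem hd1 : E4.dec 1 = 1 := by decide

theorem c_id : isIdC 2 14 idL = true := by decide +kernel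

theorem hid : (matOf E4 14 idL : Matrix (Fin 14) (Fin 14) F4) = 1 := matOf_of_isId E4 14 _ c_id hd1

abbrev DD := Cfsg.Lie.chevG2

theorem matI_sq (A : ℕ) (h : isIdC 2 14 (mulC 2 Nat.xor mulD 14 A A) = true) :
    matI E4 eI A * matI E4 eI A = 1 := by
  unfold matI
  rw [Matrix.submatrix_mul_equiv]
  have h1 := matOf_mulC E4 14 A A
  have h2 : (matOf E4 14 A * matOf E4 14 A) = 1 := by
    rw [← h1]
    exact matOf_of_isId E4 14 _ h hd1
  rw [h2, Matrix.submatrix_one_equiv]

theorem xCode_lt (p : RR) : p.1.1 * 4 + p.2.val.1 < 48 := by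
  have h1 := p.1.2
  have h2 := p.2.val.2
  omega

theorem hinvR (p : RR) : matI E4 eI (xCode p) * matI E4 eI (xCode p) = 1 :=
  matI_sq _ (hs_xinv _ (xCode_lt p))

theorem xMat_eq : ∀ (p : RR), DD.xMat F4 p.1 p.2 = matI E4 eI (xCode p) := by
  rintro ⟨r, t⟩
  ext u v
  have key : DD.xMat F4 r t u v = dec4 (rd 2 (xCi (r.1 * 4 + t.val.1)) ((eI u).1 * 14 + (eI v).1)) := by
    fin_cases r
    · exact c_x_0 t u v
    · exact c_x_1 t u v
    · exact c_x_2 t u v
    · exact c_x_3 t u v
    · exact c_x_4 t u v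
    · exact c_x_5 t u v
    · exact c_x_6 t u v
    · exact c_x_7 t u v
    · exact c_x_8 t u v
    · exact c_x_9 t u v
    · exact c_x_10 t u v
    · exact c_x_11 t u v
  rw [key]
  rfl

/-- the root element -/
def RG (p : RR) : Matrix.GeneralLinearGroup DD.Idx F4 := letGL E4 eI xCode hinvR p

theorem RG_val (p : RR) : (RG p).1 = DD.xMat F4 p.1 p.2 := (xMat_eq p).symm

theorem RG_mem (p : RR) : RG p ∈ DD.group F4 :=
  Subgroup.subset_closure ⟨p.1, p.2, RG_val p⟩

theorem c_linv (x : LP.Gen) : isIdC 2 14 (mulC 2 Nat.xor mulD 14 (codeG x) (codeG x)) = true := by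
  cases x <;> decide +kernel

theorem hinvL (x : LP.Gen) : matI E4 eI (codeG x) * matI E4 eI (codeG x) = 1 := matI_sq _ (c_linv x)

/-- the letter -/
def LG (x : LP.Gen) : Matrix.GeneralLinearGroup DD.Idx F4 := letGL E4 eI codeG hinvL x

theorem c_let (x : LP.Gen) : Nat.beq (prodFrom 2 Nat.xor mulD 14 idL ((letW x).map xCode)) (codeG x) = true := by
  cases x <;> decide +kernel

theorem LG_mem (x : LP.Gen) : LG x ∈ DD.group F4 := by
  have h := letGL_prod_eq E4 eI xCode hinvR idL hid (letW x) (codeG x) (c_let x)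
  have h2 : LG x = ((letW x).map RG).prod := Units.ext h.symm
  rw [h2]
  apply Subgroup.list_prod_mem
  intro g hg
  obtain ⟨p, -, rfl⟩ := List.mem_map.mp hg
  exact RG_mem p

theorem RG_eq (p : RR) : RG p = ((rootW (p.1.1 * 4 + p.2.val.1)).map LG).prod := by
  have h := letGL_prod_eq E4 eI codeG hinvL idL hid (rootW (p.1.1 * 4 + p.2.val.1)) (xCode p) (hs_root _ (xCode_lt p))
  exact Units.ext h.symm

/-- The letter in the group. -/
def fG (x : LP.Gen) : DD.group F4 := ⟨LG x, LG_mem x⟩

theorem fG_sq (x : LP.Gen) : fG x * fG x = 1 :=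
  Subtype.ext (letGL_sq E4 eI codeG hinvL x)

theorem hcovL : ∀ r ∈ relL, r.toWord.map Prod.fst ∈ chkL := by decide +kernel

theorem prod_chk (w : List LP.Gen) (hw : w ∈ chkL) : (w.map LG).prod = 1 := by
  obtain ⟨j, hj, rfl⟩ := List.getElem_of_mem hw
  have h1 := hs_chk j hj
  have h2 : chkL.getD j [] = chkL[j] := by
    rw [List.getD_eq_getElem _ _ hj]
  unfold F_chk at h1
  rw [h2] at h1
  exact letGL_prod_one E4 eI codeG hinvL idL hid _ h1 hd1

theorem hrelG : ∀ r ∈ rels, FreeGroup.lift fG r = 1 := by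
  intro r hr
  have hm : r ∈ relL := (mem_relList _ _ r).mpr hr
  rw [lift_eq_prod fG fG_sq]
  apply Subtype.ext
  have h2 : (((r.toWord.map (fun p => fG p.1)).prod : DD.group F4) : Matrix.GeneralLinearGroup DD.Idx F4) =
      ((r.toWord.map Prod.fst).map LG).prod := by
    have := map_list_prod (DD.group F4).subtype (r.toWord.map (fun p => fG p.1))
    rw [List.map_map] at this
    rw [List.map_map]
    exact this
  rw [h2]
  exact prod_chk _ (hcovL r hm)

/-- The hom to the Chevalley group. -/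
def beta : PP →* DD.group F4 := PresentedGroup.toGroup hrelG

theorem beta_of (x : LP.Gen) : beta (PresentedGroup.of x) = fG x := PresentedGroup.toGroup.of hrelG

theorem beta_surj : Function.Surjective beta := by
  have hK : DD.group F4 ≤ beta.range.map (DD.group F4).subtype := by
    unfold Cfsg.Lie.ChevalleyDatum.group
    rw [Subgroup.closure_le]
    rintro g ⟨r, t, hg⟩
    have h1 : g = RG (r, t) := Units.ext (by rw [hg, RG_val])
    rw [h1, RG_eq]
    apply Subgroup.list_prod_mem
    intro y hy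
    obtain ⟨x, -, rfl⟩ := List.mem_map.mp hy
    exact ⟨fG x, ⟨PresentedGroup.of x, beta_of x⟩, rfl⟩
  intro g
  obtain ⟨y, ⟨p, rfl⟩, hy⟩ := hK g.2
  exact ⟨p, Subtype.ext hy⟩

/-! ### The table -/

theorem hbd4 : ∀ i, i < cn4 → ∀ y, y < ncol → T4 i y < cn4 := by
  intro i hi y hy
  have h := hs_misc i hi
  unfold F_misc at h
  simp only [Bool.and_eq_true, List.all_eq_true] at h
  exact blt_lt (h.1.1.2 y (List.mem_range.mpr hy))

theorem tab4 : TabRep rels T4 col cn4 := by
  refine TabRep.of_checks (relL := relL) (chkW := chkW) (ncol := ncol) (letter := letter) (ybar := ybar)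
    (fun r hr => (mem_relList _ _ r).mpr hr) hcol hletter hybar hbd4 ?_ ?_ ?_ hs_rel
  · intro y hy
    have h := c_pairs
    rw [List.all_eq_true] at h
    simpa using h y (List.mem_range.mpr hy)
  · intro w hw y hy
    have h := c_lt
    rw [List.all_eq_true] at h
    have h1 := h w hw
    rw [List.all_eq_true] at h1
    exact blt_lt (h1 y hy)
  · intro r hr
    have h := c_cov
    rw [List.all_eq_true] at h
    have h1 := h r hr
    simp only [List.any_eq_true, List.mem_range, beq_iff_eq] at h1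
    obtain ⟨w, hw, s, _, hs⟩ := h1
    exact ⟨w, hw, s, hs⟩

instance : NeZero cn4 := ⟨by decide⟩

abbrev rho4 : PP →* Equiv.Perm (Fin cn4) := rhoT tab4.hb tab4.hi tab4.hrel

theorem htrans4 : ∀ i : Fin cn4, ∃ g, rho4 g 0 = i := by
  refine rhoT_trans_rk tab4.hb tab4.hi tab4.hrel rk4 ?_
  intro i h0 hi
  have h := hs_misc i hi
  unfold F_misc at h
  simp only [Bool.and_eq_true] at h
  have h1 := h.2
  have h2 : Nat.beq i 0 = false := by
    cases h3 : Nat.beq i 0 with
    | false => rfl
    | true =>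
      have := Nat.eq_of_beq_eq_true h3
      omega
  rw [h2] at h1
  simp only [cond_false, List.any_eq_true, List.mem_range] at h1
  obtain ⟨y, hy, h3⟩ := h1
  refine ⟨(letter y).1, (letter y).2, ?_⟩
  rw [hletter y hy]
  exact blt_lt h3

theorem c_w : allR (guard cJ (fun j => (wordS j).all (fun y => Nat.blt y ncol))) 3 0 = true := by decide +kernel
theorem c_0 : allR (guard cJ (fun j => Nat.beq (walkR T4 (wordS j) 0) 0)) 3 0 = true := by decide +kernel
theorem c_fix : (List.range cL).all (fun i => (List.range cJ).all (fun j =>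
    !(Nat.ble (i + 1) (levS j)) || Nat.beq (walkR T4 (wordS j) (baseS i)) (baseS i))) = true := by decide +kernel
theorem c_base : (List.range cL).all (fun i => Nat.blt (baseS i) cn4) = true := by decide +kernel
theorem c_prod : 251596800 = cn4 * ∏ i ∈ Finset.range cL, szS i := by decide +kernel

theorem sgs_hw : ∀ j, j < cJ → ∀ y ∈ wordS j, y < ncol := by
  intro j hj y hy
  have h1 := guard_spec (by decide) c_w j hj
  rw [List.all_eq_true] at h1
  exact blt_lt (h1 y hy)

theorem sgs_h0 : ∀ j, j < cJ → walk T4 0 (wordS j) = 0 := by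
  intro j hj
  have h1 := guard_spec (by decide) c_0 j hj
  rw [walkR_eq] at h1
  exact Nat.eq_of_beq_eq_true h1

theorem sgs_hbase : ∀ i, i < cL → baseS i < cn4 := by
  intro i hi
  have h := c_base
  rw [List.all_eq_true] at h
  exact blt_lt (h i (List.mem_range.mpr hi))

theorem sgs_hfix : ∀ i, i < cL → ∀ j, j < cJ → i + 1 ≤ levS j → walk T4 (baseS i) (wordS j) = baseS i := by
  intro i hi j hj hl
  have h := c_fix
  rw [List.all_eq_true] at h
  have h1 := h i (List.mem_range.mpr hi)
  rw [List.all_eq_true] at h1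
  have h2 := h1 j (List.mem_range.mpr hj)
  have h3 : Nat.ble (i + 1) (levS j) = true := Nat.ble_eq_true_of_le hl
  rw [h3] at h2
  simp only [Bool.not_true, Bool.false_or] at h2
  rw [walkR_eq] at h2
  exact Nat.eq_of_beq_eq_true h2

theorem sgs_hlvl : ∀ i, i < cL → ∀ k, k < szS i → lvlOK T4 wordS levS (ES i) (szS i) cJ cn4 i (baseS i) k = true := by
  intro i hi k hk
  interval_cases i
  · exact hs_lvl0 k hk
  · exact hs_lvl1 k hk

theorem card_lower : 251596800 ≤ Nat.card rho4.range := by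
  rw [c_prod]
  exact sgs_lower (ncol := ncol) (letter := letter) tab4 hletter wordS levS cJ cL baseS szS ES htrans4
    sgs_hw sgs_h0 sgs_hbase sgs_hfix sgs_hlvl

/-! ### Objects -/

theorem hq4 : ∀ x y, x < 4 → y < 4 → E4.dec x = E4.dec y → x = y := by
  intro x y hx hy
  interval_cases x <;> interval_cases y <;> decide

theorem V4_mono : ∀ i j, i < j → j < cn4 → V4 i < V4 j := by
  intro i j hij
  induction j, hij using Nat.le_induction with
  | base =>
    intro hj
    have h := hs_misc i (Nat.lt_of_succ_lt hj)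
    unfold F_misc at h
    simp only [Bool.and_eq_true] at h
    have h1 := h.1.2
    have h2 : Nat.blt (i + 1) cn4 = true := blt_of_lt hj
    rw [show Nat.add i 1 = i + 1 from rfl, h2] at h1
    exact blt_lt h1
  | succ j hj ih =>
    intro hj2
    have h := hs_misc j (Nat.lt_of_succ_lt hj2)
    unfold F_misc at h
    simp only [Bool.and_eq_true] at h
    have h1 := h.1.2
    have h2 : Nat.blt (j + 1) cn4 = true := blt_of_lt hj2
    rw [show Nat.add j 1 = j + 1 from rfl, h2] at h1
    exact lt_trans (ih (by omega)) (blt_lt h1)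

def obj4 (i : Fin cn4) : DD.Idx → F4 := vecI E4 eI (V4 i.1)

theorem canon4 (i : Fin cn4) : canonV 2 14 4 (V4 i.1) = true := by
  have h := hs_misc i.1 i.2
  unfold F_misc at h
  simp only [Bool.and_eq_true] at h
  exact h.1.1.1

theorem obj4_inj : Function.Injective obj4 := by
  intro i j h
  have h1 := vecI_inj E4 eI 4 hq4 _ _ (canon4 i) (canon4 j) h
  apply Fin.ext
  rcases lt_trichotomy i.1 j.1 with h2 | h2 | h2
  · have := V4_mono _ _ h2 j.2
    omega
  · exact h2
  · have := V4_mono _ _ h2 i.2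
    omega

theorem c_letter_col (x : LP.Gen) : col x false < 6 ∧ letter (col x false) = (x, true) := by
  cases x <;> decide

theorem rho4_of (x : LP.Gen) (i : Fin cn4) : (rho4 (PresentedGroup.of x) i).1 = T4 i.1 (col x false) := by
  have h := rhoT_mk tab4.hb tab4.hi tab4.hrel (FreeGroup.of x) i
  have h2 : (FreeGroup.of x : FreeGroup LP.Gen).toWord = [(x, true)] := FreeGroup.toWord_of x
  rw [h2] at h
  exact h

theorem hfact : ∀ p, beta p = 1 → rho4 p = 1 := by
  refine fact_of_objects beta rho4 ((glPerm (F := F4) (ι := DD.Idx)).comp (DD.group F4).subtype) obj4 obj4_inj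
    (Set.range PresentedGroup.of) (PresentedGroup.closure_range_of rels) ?_
  rintro _ ⟨x, rfl⟩ i
  have h1 : ((glPerm (F := F4) (ι := DD.Idx)).comp (DD.group F4).subtype) (beta (PresentedGroup.of x)) = glPerm (LG x) := by
    rw [beta_of]
    rfl
  rw [h1]
  have h2 : glPerm (LG x) (obj4 i) = vecI E4 eI (mvC 2 Nat.xor mulD 14 (codeG x) (V4 i.1)) :=
    glPerm_letGL E4 eI codeG hinvL x _
  rw [h2]
  show _ = vecI E4 eI (V4 (rho4 (PresentedGroup.of x) i).1)
  rw [rho4_of]
  have h3 := hs_tab i.1 i.2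
  unfold F_tab at h3
  rw [List.all_eq_true] at h3
  obtain ⟨h4, h5⟩ := c_letter_col x
  have h6 := h3 (col x false) (List.mem_range.mpr h4)
  rw [h5] at h6
  rw [Nat.eq_of_beq_eq_true h6]

/-! ### The subgroup of the presented group -/

abbrev GGs : Type := Cfsg.Spor.Suz

abbrev HHs : Subgroup GGs := (Subgroup.closure ({Suz.a, Suz.b, Suz.c, Suz.d, Suz.e, Suz.f} : Set (FreeGroup Suz.Gen))).map
  (PresentedGroup.mk (coxRelators Suz.edges ∪ {r | r ∈ Suz.extra}))

def f0 : PP →* GGs := PresentedGroup.toGroup hphi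

theorem f0_of (x : LP.Gen) : f0 (PresentedGroup.of x) = phi x := PresentedGroup.toGroup.of hphi

theorem phi_mem (x : LP.Gen) : phi x ∈ HHs := by
  refine Subgroup.mem_map_of_mem _ (Subgroup.subset_closure ?_)
  cases x <;> simp [LP.iota]

theorem f0_mem (p : PP) : f0 p ∈ HHs := by
  have hle : f0.range ≤ HHs := by
    rw [MonoidHom.range_eq_map, ← PresentedGroup.closure_range_of, MonoidHom.map_closure, Subgroup.closure_le]
    rintro _ ⟨_, ⟨x, rfl⟩, rfl⟩
    rw [f0_of]
    exact phi_mem x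
  exact hle ⟨p, rfl⟩

def alpha : PP →* HHs := f0.codRestrict HHs f0_mem

theorem alpha_surj : Function.Surjective alpha := by
  have hle : HHs ≤ f0.range := by
    unfold HHs
    rw [Subgroup.map_le_iff_le_comap, Subgroup.closure_le]
    intro s hs
    simp only [Set.mem_insert_iff, Set.mem_singleton_iff] at hs
    rcases hs with rfl | rfl | rfl | rfl | rfl | rfl
    · exact ⟨PresentedGroup.of .a, f0_of _⟩
    · exact ⟨PresentedGroup.of .b, f0_of _⟩
    · exact ⟨PresentedGroup.of .c, f0_of _⟩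
    · exact ⟨PresentedGroup.of .d, f0_of _⟩
    · exact ⟨PresentedGroup.of .e, f0_of _⟩
    · exact ⟨PresentedGroup.of .f, f0_of _⟩
  rintro ⟨g, hg⟩
  obtain ⟨p, hp⟩ := hle hg
  exact ⟨p, Subtype.ext hp⟩

theorem card_HHs : 251596800 ≤ Nat.card HHs := by
  have h1 := HHs.index_mul_card
  have h2 : HHs.index = 1782 := Suz1782.index_eq
  rw [h2] at h1
  have h3 : Nat.card GGs = 448345497600 := SuzFinal.result.2
  rw [h3] at h1
  omega

theorem result : ∃ (K : Type) (_ : Field K) (_ : Fintype K), Fintype.card K = 4 ∧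
    Nonempty (HHs ≃* Cfsg.Lie.chevG2.group K) := by
  haveI : Finite PP := hub.1
  exact ⟨F4, inferInstance, inferInstance, card_F4,
    iso_of_data alpha alpha_surj beta beta_surj rho4 hfact hub.2 card_lower card_HHs⟩

end

end Cfsg.Agent.H07.CD.G24
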