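import Mathlib
import Cfsg.Agent.Lib.H07.CD.He2058M
set_option autoImplicit false
set_option maxRecDepth 1000000
namespace Cfsg.Agent.H07.CD.He2058
open Cfsg.Agent.H07.Coset Cfsg.Spor
noncomputable section
theorem c_orb1_0 : allR F_orb1 11 (0 * 2 ^ 11) = true := by decide +kernel
theorem c_orb1_1 : allR F_orb1 11 (1 * 2 ^ 11) = true := by decide +kernel
theorem c_orb2_0 : allR F_orb2 11 (0 * 2 ^ 11) = true := by decide +kernel
theorem c_orb2_1 : allR F_orb2 11 (1 * 2 ^ 11) = true := by decide +kernel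
theorem c_orb3_0 : allR F_orb3 11 (0 * 2 ^ 11) = true := by decide +kernel
theorem c_orb3_1 : allR F_orb3 11 (1 * 2 ^ 11) = true := by decide +kernel

end

end Cfsg.Agent.H07.CD.He2058
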