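import Mathlib
import Cfsg.Agent.Lib.H07.CD.HeXM
import Cfsg.Agent.Lib.H07.SimpleT
import Cfsg.Agent.Lib.H07.CD.HeXC0
set_option autoImplicit false
set_option maxRecDepth 1000000
namespace Cfsg.Agent.H07.CD.HeX
open Cfsg.Agent.H07.Coset Cfsg.Spor
noncomputable section
theorem hs_step : ∀ i, i < cM → (stepOK cell eps stp defs wordT.get ncol hlet) i = true :=
  guard_specM (d := 10) (m := 1) (by decide) (by
  intro j hj
  interval_cases j
  · exact c_step_0)

theorem hs_cell : ∀ i, i < cN → (fun g => (List.range ncol).all (fun y => consCell cell stp cM g y)) i = true :=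
  guard_specM (d := 8) (m := 1) (by decide) (by
  intro j hj
  interval_cases j
  · exact c_cell_0)

theorem hs_eps : ∀ i, i < cN → (consEps eps stp cM) i = true :=
  guard_specM (d := 8) (m := 1) (by decide) (by
  intro j hj
  interval_cases j
  · exact c_eps_0)

theorem hs_fin : ∀ i, i < cn → (finOK cell eps live T cM cn ncol) i = true :=
  guard_specM (d := 1) (m := 1) (by decide) (by
  intro j hj
  interval_cases j
  · exact c_fin_0)


theorem hcol : ∀ (x : He.Gen) (c : Bool), col x c < ncol := by
  intro x c; cases x <;> cases c <;> decide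
theorem hletter : ∀ y, y < ncol → col (letter y).1 (letter y).2 = y := by
  intro y hy
  have h := c_letter
  rw [List.all_eq_true] at h
  exact Nat.eq_of_beq_eq_true (h y (List.mem_range.mpr hy))
theorem hybar : ∀ (x : He.Gen) (c : Bool), ybar (col x c) = col x (!c) := by
  intro x c; cases x <;> cases c <;> rfl
theorem hlet1 : ∀ x : He.Gen, letter (col x true) = (x, true) := by
  intro x; cases x <;> rfl
theorem hlet2 : ∀ x : He.Gen, col x false = col x true ∨ letter (col x false) = (x, false) := by
  intro x; cases x <;> first | exact Or.inl rfl | exact Or.inr rfl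
theorem hinvol : ∀ x : He.Gen, col x false = col x true →
    (PresentedGroup.of x : PresentedGroup rels) * PresentedGroup.of x = 1 := by
  intro x hx
  cases x <;> first | exact cox_invol (by decide) | exact absurd hx (by decide)

theorem hL : ∀ (x : He.Gen) (c : Bool), Lp rels ncol letter hwf (col x c) =
    cond c (PresentedGroup.of x) (PresentedGroup.of x)⁻¹ :=
  hL_of hlet1 hlet2 hcol hinvol

theorem hSl : ∀ s ∈ cS, s ∈ Sl := by
  intro s hs
  simpa [Sl, cS] using hs
theorem hSl' : ∀ s ∈ Sl, s ∈ cS := by
  intro s hs
  simpa [Sl, cS] using hs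

theorem hwfS : ∀ j, hwf j ∈ Subgroup.closure cS := by
  intro j
  unfold hwf
  rw [List.getD_eq_getElem?_getD]
  cases hj : hwL[j]? with
  | none => exact one_mem _
  | some s =>
    have : s ∈ hwL := List.mem_of_getElem? hj
    refine Subgroup.subset_closure ?_
    simp only [hwL, List.mem_cons, List.not_mem_nil, or_false] at this
    

theorem hbase : ∀ b ∈ baseW, (b.map (Lp rels ncol letter hwf)).prod = 1 := by
  refine mkBase_prod hL hletter hybar hcol ?_ ?_
  · intro w hw
    have h := c_relW
    rw [List.all_eq_true] at h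
    have h1 := h w hw
    simp only [List.any_eq_true, beq_iff_eq] at h1
    obtain ⟨r, hr, rfl⟩ := h1
    exact ⟨r, (mem_relList _ _ r).mp hr, rfl⟩
  · intro w hw
    have h := c_ps
    rw [List.all_eq_true] at h
    have h1 := h w hw
    simp only [List.any_eq_true, beq_iff_eq] at h1
    obtain ⟨j, _, rfl⟩ := h1
    exact ⟨j, rfl⟩

theorem hletK : ∀ y ∈ hlet, Lp rels ncol letter hwf y ∈ (Subgroup.closure cS).map (PresentedGroup.mk rels) := by
  intro y hy
  have h := c_hlet
  rw [List.all_eq_true] at h
  have h1 := h y hy
  simp only [Bool.and_eq_true, List.contains_iff_mem] at h1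
  obtain ⟨⟨h2, h3⟩, h4⟩ := h1
  unfold Lp
  rw [if_pos (blt_lt h2), h3]
  exact Subgroup.mem_map_of_mem _ (Subgroup.subset_closure (hSl' _ h4))

theorem hcc : ∀ g y, consCell cell stp cM g y = true := by
  refine consCell_all (N := cN) (ncol := ncol) ?_ ?_
  · intro g y h
    have : cell g y = _ := mkCell_undef _ cN ncol _ g y h
    rw [this]
    decide
  · intro g hg y hy
    have h1 := hs_cell g hg
    rw [List.all_eq_true] at h1
    exact h1 y (List.mem_range.mpr hy)

theorem hce : ∀ g, consEps eps stp cM g = true := by
  refine consEps_all (N := cN) ?_ ?_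
  · intro g h
    have : eps g = _ := mkEps_undef _ cN _ g h
    rw [this]
    decide
  · intro g hg
    exact hs_eps g hg

theorem hup : ((Subgroup.closure cS).map (PresentedGroup.mk rels)).index ≤ cn ∧
    ((Subgroup.closure cS).map (PresentedGroup.mk rels)).index ≠ 0 :=
  index_upper (col := col) (letter := letter) (hwf := hwf) hL hcol hletter hwfS (T := T) (live := live)
    (by decide) hbase c_leaf hletK hs_step hcc hce (by decide +kernel)
    (hfin_of hs_fin)


end

end Cfsg.Agent.H07.CD.HeX
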