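import Mathlib
import Cfsg.Agent.Lib.H07.CD.He2058G
import Cfsg.Agent.Lib.H07.CD.HeX
import Cfsg.Agent.Lib.H07.CD.HeL1
import Cfsg.Agent.Lib.H07.CD.HeL2
import Cfsg.Agent.Lib.H07.CD.HeU
import Cfsg.Agent.Lib.H07.SimpleT2
set_option autoImplicit false
set_option maxRecDepth 100000
namespace Cfsg.Agent.H07.CD.HeFinal
open Cfsg.Agent.H07.Coset Cfsg.Agent.H07.SimpleT Cfsg.Spor
noncomputable section

abbrev GG : Type := PresentedGroup (coxRelators He.edges ∪ {r | r ∈ He.extra})

theorem hub : Finite GG ∧ Nat.card GG ≤ 4030387200 := by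
  have h1 := level_bound HeL2.phi HeL2.hphi HeL2.hup (⊥ : Subgroup GG) (by
    intro s hs
    exact absurd hs (Set.notMem_empty s))
  haveI := h1.1
  have c1 := h1.2
  rw [Subgroup.card_bot, Nat.mul_one] at c1
  have h0 := level_bound HeL1.phi HeL1.hphi HeL1.hup (Subgroup.closure (Set.range HeL2.phi)) (by
    intro s hs
    simp only [HeL1.cS, Set.mem_insert_iff, Set.mem_singleton_iff] at hs
    rcases hs with rfl|rfl|rfl|rfl|rfl
    · rw [show HeL1.LP.a = FreeGroup.of HeL1.LP.Gen.a from rfl, FreeGroup.lift_apply_of]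
      exact Subgroup.subset_closure ⟨.a, rfl⟩
    · rw [show HeL1.LP.d = FreeGroup.of HeL1.LP.Gen.d from rfl, FreeGroup.lift_apply_of]
      exact Subgroup.subset_closure ⟨.d, rfl⟩
    · rw [show HeL1.LP.e = FreeGroup.of HeL1.LP.Gen.e from rfl, FreeGroup.lift_apply_of]
      exact Subgroup.subset_closure ⟨.e, rfl⟩
    · rw [show HeL1.LP.f = FreeGroup.of HeL1.LP.Gen.f from rfl, FreeGroup.lift_apply_of]
      exact Subgroup.subset_closure ⟨.f, rfl⟩
    · rw [show HeL1.LP.g = FreeGroup.of HeL1.LP.Gen.g from rfl, FreeGroup.lift_apply_of]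
      exact Subgroup.subset_closure ⟨.g, rfl⟩)
  haveI := h0.1
  have c0 := le_trans h0.2 (Nat.mul_le_mul_left _ c1)
  have ht := level_bound (fun x => (PresentedGroup.of x : GG)) (lift_top _) HeU.hup (Subgroup.closure (Set.range HeL1.phi)) (by
    intro s hs
    simp only [HeU.cS, Set.mem_insert_iff, Set.mem_singleton_iff] at hs
    rcases hs with rfl|rfl|rfl|rfl|rfl|rfl
    · rw [show He.a = FreeGroup.of He.Gen.a from rfl, FreeGroup.lift_apply_of]
      exact Subgroup.subset_closure ⟨.a, rfl⟩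
    · rw [show He.c = FreeGroup.of He.Gen.c from rfl, FreeGroup.lift_apply_of]
      exact Subgroup.subset_closure ⟨.c, rfl⟩
    · rw [show He.d = FreeGroup.of He.Gen.d from rfl, FreeGroup.lift_apply_of]
      exact Subgroup.subset_closure ⟨.d, rfl⟩
    · rw [show He.e = FreeGroup.of He.Gen.e from rfl, FreeGroup.lift_apply_of]
      exact Subgroup.subset_closure ⟨.e, rfl⟩
    · rw [show He.f = FreeGroup.of He.Gen.f from rfl, FreeGroup.lift_apply_of]
      exact Subgroup.subset_closure ⟨.f, rfl⟩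
    · rw [show He.g = FreeGroup.of He.Gen.g from rfl, FreeGroup.lift_apply_of]
      exact Subgroup.subset_closure ⟨.g, rfl⟩)
  have ct := le_trans ht.2 (Nat.mul_le_mul_left _ c0)
  have hf := top_of_level _ ⟨ht.1, ct⟩
  exact ⟨hf.1, le_trans hf.2 (by decide)⟩

open He2058 in
theorem hreach : ∀ iv ∈ ([(1, 1361), (1361, 1786), (1786, 1922), (1922, 2058)] : List (ℕ × ℕ)), ∀ i : Fin cn, iv.1 ≤ i.1 → i.1 < iv.2 →
    ∃ h : iv.1 < cn, ∃ k ∈ (Subgroup.closure cS).map (PresentedGroup.mk rels),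
      rhoT tabRep.hb tabRep.hi tabRep.hrel k ⟨iv.1, h⟩ = i := by
  intro iv hiv i h1 h2
  simp only [List.mem_cons, List.not_mem_nil, or_false] at hiv
  rcases hiv with rfl|rfl|rfl|rfl
  · exact ⟨by decide, interval_reach tabRep.hb tabRep.hi tabRep.hrel SW hSW' 1 1361 (by decide) (by decide)
      (orbOK_cl hs_orb0 (by decide)) (orbOK_desc hs_orb0 (by decide)) ⟨1, by decide⟩ rfl i h1 h2⟩
  · exact ⟨by decide, interval_reach tabRep.hb tabRep.hi tabRep.hrel SW hSW' 1361 1786 (by decide) (by decide)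
      (orbOK_cl hs_orb1 (by decide)) (orbOK_desc hs_orb1 (by decide)) ⟨1361, by decide⟩ rfl i h1 h2⟩
  · exact ⟨by decide, interval_reach tabRep.hb tabRep.hi tabRep.hrel SW hSW' 1786 1922 (by decide) (by decide)
      (orbOK_cl hs_orb2 (by decide)) (orbOK_desc hs_orb2 (by decide)) ⟨1786, by decide⟩ rfl i h1 h2⟩
  · exact ⟨by decide, interval_reach tabRep.hb tabRep.hi tabRep.hrel SW hSW' 1922 2058 (by decide) (by decide)
      (orbOK_cl hs_orb3 (by decide)) (orbOK_desc hs_orb3 (by decide)) ⟨1922, by decide⟩ rfl i h1 h2⟩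

open He2058 in
theorem hblock : ∀ O : Finset (Fin cn), 0 ∈ O →
    (∀ k ∈ (Subgroup.closure cS).map (PresentedGroup.mk rels), ∀ i ∈ O, rhoT tabRep.hb tabRep.hi tabRep.hrel k i ∈ O) →
    O.card ∣ cn → O.card = 1 ∨ O.card = cn :=
  hblock_of_intervals _ _ [(1, 1361), (1361, 1786), (1786, 1922), (1922, 2058)] (by decide) (by decide) hreach

open He2058 in
theorem result : IsSimpleGroup GG ∧ Nat.card GG = 4030387200 := by
  haveI : Finite GG := hub.1
  obtain ⟨hc, hinj⟩ := card_and_inj (rhoT tabRep.hb tabRep.hi tabRep.hrel) hub.2 card_lower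
  refine ⟨?_, hc⟩
  haveI : Nontrivial GG := Finite.one_lt_card_iff_nontrivial.mp (by rw [hc]; decide)
  have hx : (PresentedGroup.mk _ HeX.xF : GG) ^ 7 = 1 :=
    pow_eq_one_of_check tabRep hinj HeX.xF xW c_xW 7 hs_xp
  exact simple_of_data (rhoT tabRep.hb tabRep.hi tabRep.hrel) hinj htrans _
    (rhoT_fix tabRep.hb tabRep.hi tabRep.hrel hSfix) hblock (p := 7) (a := 3) (by norm_num) (by decide)
    (by rw [hc]; decide) _ hx
    (fun N hN hxN => normal_top_of_collapse (rels_append _ _ _) HeX.hup.1 HeX.hup.2 N hxN)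

end

end Cfsg.Agent.H07.CD.HeFinal
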