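import Mathlib
import Cfsg.Agent.Lib.H07.CD.HeL2M
set_option autoImplicit false
set_option maxRecDepth 1000000
namespace Cfsg.Agent.H07.CD.HeL2
open Cfsg.Agent.H07.Coset Cfsg.Spor
noncomputable section
theorem c_step_0 : allR F_step 11 (0 * 2 ^ 11) = true := by decide +kernel
theorem c_cell_0 : allR F_cell 9 (0 * 2 ^ 9) = true := by decide +kernel
theorem c_eps_0 : allR F_eps 9 (0 * 2 ^ 9) = true := by decide +kernel
theorem c_fin_0 : allR F_fin 9 (0 * 2 ^ 9) = true := by decide +kernel

end

end Cfsg.Agent.H07.CD.HeL2
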