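import Mathlib
import Cfsg.Agent.Lib.H07.CD.HeUM
set_option autoImplicit false
set_option maxRecDepth 1000000
namespace Cfsg.Agent.H07.CD.HeU
open Cfsg.Agent.H07.Coset Cfsg.Spor
noncomputable section
theorem c_step_0 : allR F_step 14 (0 * 2 ^ 14) = true := by decide +kernel
theorem c_step_1 : allR F_step 14 (1 * 2 ^ 14) = true := by decide +kernel
theorem c_step_2 : allR F_step 14 (2 * 2 ^ 14) = true := by decide +kernel
theorem c_step_3 : allR F_step 14 (3 * 2 ^ 14) = true := by decide +kernel
theorem c_step_4 : allR F_step 14 (4 * 2 ^ 14) = true := by decide +kernel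
theorem c_step_5 : allR F_step 14 (5 * 2 ^ 14) = true := by decide +kernel

end

end Cfsg.Agent.H07.CD.HeU
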