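import Mathlib
import Cfsg.Agent.Lib.H07.CD.HeUM
set_option autoImplicit false
set_option maxRecDepth 1000000
namespace Cfsg.Agent.H07.CD.HeU
open Cfsg.Agent.H07.Coset Cfsg.Spor
noncomputable section
theorem c_step_6 : allR F_step 14 (6 * 2 ^ 14) = true := by decide +kernel
theorem c_step_7 : allR F_step 14 (7 * 2 ^ 14) = true := by decide +kernel
theorem c_step_8 : allR F_step 14 (8 * 2 ^ 14) = true := by decide +kernel
theorem c_step_9 : allR F_step 14 (9 * 2 ^ 14) = true := by decide +kernel
theorem c_step_10 : allR F_step 14 (10 * 2 ^ 14) = true := by decide +kernel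
theorem c_step_11 : allR F_step 14 (11 * 2 ^ 14) = true := by decide +kernel

end

end Cfsg.Agent.H07.CD.HeU
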