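import Mathlib
import Cfsg.Agent.Lib.H07.CD.HeUM
set_option autoImplicit false
set_option maxRecDepth 1000000
namespace Cfsg.Agent.H07.CD.HeU
open Cfsg.Agent.H07.Coset Cfsg.Spor
noncomputable section
theorem c_fin_2_l : allR F_fin 12 (2 * 2 ^ 13) = true := by decide +kernel
theorem c_fin_2_r : allR F_fin 12 (2 * 2 ^ 13 + 2 ^ 12) = true := by decide +kernel
theorem c_fin_2 : allR F_fin 13 (2 * 2 ^ 13) = true := allR_of_parts F_fin 12 _ c_fin_2_l c_fin_2_r
theorem c_fin_3_l : allR F_fin 12 (3 * 2 ^ 13) = true := by decide +kernel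
theorem c_fin_3_r : allR F_fin 12 (3 * 2 ^ 13 + 2 ^ 12) = true := by decide +kernel
theorem c_fin_3 : allR F_fin 13 (3 * 2 ^ 13) = true := allR_of_parts F_fin 12 _ c_fin_3_l c_fin_3_r
theorem c_fin_4_l : allR F_fin 12 (4 * 2 ^ 13) = true := by decide +kernel
theorem c_fin_4_r : allR F_fin 12 (4 * 2 ^ 13 + 2 ^ 12) = true := by decide +kernel
theorem c_fin_4 : allR F_fin 13 (4 * 2 ^ 13) = true := allR_of_parts F_fin 12 _ c_fin_4_l c_fin_4_r
theorem c_fin_5_l : allR F_fin 12 (5 * 2 ^ 13) = true := by decide +kernel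
theorem c_fin_5_r : allR F_fin 12 (5 * 2 ^ 13 + 2 ^ 12) = true := by decide +kernel
theorem c_fin_5 : allR F_fin 13 (5 * 2 ^ 13) = true := allR_of_parts F_fin 12 _ c_fin_5_l c_fin_5_r
theorem c_fin_6_l : allR F_fin 12 (6 * 2 ^ 13) = true := by decide +kernel
theorem c_fin_6_r : allR F_fin 12 (6 * 2 ^ 13 + 2 ^ 12) = true := by decide +kernel
theorem c_fin_6 : allR F_fin 13 (6 * 2 ^ 13) = true := allR_of_parts F_fin 12 _ c_fin_6_l c_fin_6_r

end

end Cfsg.Agent.H07.CD.HeU
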