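import Cfsg.Prelude.Def_SporCoxeter
set_option autoImplicit false

/-!
A presentation of the smallest Janko group, used to place it inside larger groups.
-/

namespace Cfsg
namespace Spor

namespace J1p

/-- The generators. -/
inductive Gen
  | a
  | b
  deriving DecidableEq

/-- the generator a as a word -/ abbrev a : FreeGroup Gen := FreeGroup.of Gen.a
/-- the generator b as a word -/ abbrev b : FreeGroup Gen := FreeGroup.of Gen.b

/-- The node a is an involution. -/
def edges : List (Gen × ℕ × Gen) :=
  [(.a, 2, .a)]

/-- The further relators. -/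
def extra : List (FreeGroup Gen) := [
  b ^ 3,
  (a * b) ^ 7,
  (a * b * (a * b * a * b⁻¹) ^ 3) ^ 5,
  (a * b * (a * b * a * b⁻¹) ^ 6 * a * b * a * b * (a * b⁻¹) ^ 2) ^ 2
]

end J1p

end Spor
end Cfsg
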