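import Mathlib
import Cfsg.Agent.Lib.H07.CD.J1pUM
set_option autoImplicit false
set_option maxRecDepth 1000000
namespace Cfsg.Agent.H07.CD.J1pU
open Cfsg.Agent.H07.Coset Cfsg.Spor
noncomputable section
theorem c_step_13 : allR F_step 12 (13 * 2 ^ 12) = true := by decide +kernel
theorem c_step_14 : allR F_step 12 (14 * 2 ^ 12) = true := by decide +kernel
theorem c_step_15 : allR F_step 12 (15 * 2 ^ 12) = true := by decide +kernel
theorem c_step_16 : allR F_step 12 (16 * 2 ^ 12) = true := by decide +kernel
theorem c_step_17 : allR F_step 12 (17 * 2 ^ 12) = true := by decide +kernel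
theorem c_step_18 : allR F_step 12 (18 * 2 ^ 12) = true := by decide +kernel
theorem c_cell_0 : allR F_cell 15 (0 * 2 ^ 15) = true := by decide +kernel
theorem c_eps_0 : allR F_eps 15 (0 * 2 ^ 15) = true := by decide +kernel
theorem c_fin_0 : allR F_fin 13 (0 * 2 ^ 13) = true := by decide +kernel
theorem c_fin_1 : allR F_fin 13 (1 * 2 ^ 13) = true := by decide +kernel
theorem c_fin_2 : allR F_fin 13 (2 * 2 ^ 13) = true := by decide +kernel
theorem c_fin_3 : allR F_fin 13 (3 * 2 ^ 13) = true := by decide +kernel

end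

end Cfsg.Agent.H07.CD.J1pU
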