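import Cfsg.Prelude.Def_SporCoxeter
set_option autoImplicit false

/-!
A presentation of the smallest Mathieu group, used to place it inside larger groups.
-/

namespace Cfsg
namespace Spor

namespace M11p

/-- The generators. -/
inductive Gen
  | a
  | b
  deriving DecidableEq

/-- the generator a as a word -/ abbrev a : FreeGroup Gen := FreeGroup.of Gen.a
/-- the generator b as a word -/ abbrev b : FreeGroup Gen := FreeGroup.of Gen.b

/-- The node a is an involution. -/
def edges : List (Gen × ℕ × Gen) :=
  [(.a, 2, .a)]

/-- The further relators. -/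
def extra : List (FreeGroup Gen) := [
  b ^ 4,
  (a * b) ^ 11,
  (a * b * b) ^ 6,
  a * b * a * b * a * b⁻¹ * a * b * a * b * b * a * b⁻¹ * a * b * a * b⁻¹ * a * b⁻¹
]

end M11p

end Spor
end Cfsg
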