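import Mathlib
import Cfsg.Agent.Lib.H07.CD.M11pT
import Cfsg.Agent.Lib.H07.SimpleT2
set_option autoImplicit false
set_option maxRecDepth 1000000
namespace Cfsg.Agent.H07.CD.M11pT
open Cfsg.Agent.H07.Coset Cfsg.Agent.H07.SimpleT Cfsg.Spor
noncomputable section
def wordST : BT (List ℕ) := (BT.node (BT.node (BT.node (BT.leaf [0]) (BT.leaf [1,0,2,0,1,0,1,1,0,2,2,0,2,0,1,0,2,0,2,2,0,2,0,1,0,2,0,2,2,0,2,0,1,0,2,0,2,2,0,2,0,1,0,2,2,2,0,2,0,1,0,2,0])) (BT.node (BT.leaf [0,1,0,2,0,1,0,1,1,0]) (BT.leaf []))) (BT.node (BT.node (BT.leaf [2,2,0,2,0,1,0,2,0]) (BT.leaf [2,2,0,2,0,1,0,2,2,2,0,2,0,1,0,2,0,2,2,0,2,0,1,0,2,0,1,0,2,0,1,0,1,1,0,1,0,2,0,1,0,1,1])) (BT.node (BT.leaf [2,2,0,2,0,1,0,2,0,1,0,2,0,1,0,1,1]) (BT.leaf []))))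
def wordS : ℕ → List ℕ := wordST.get
def levL : List ℕ := [0,0,1,1,2,2]
def levS (j : ℕ) : ℕ := levL.getD j 0
abbrev cJ : ℕ := 6
abbrev cL : ℕ := 3
def baseL : List ℕ := [1,2,3]
def szL : List ℕ := [10,9,8]
def baseS (i : ℕ) : ℕ := baseL.getD i 0
def szS (i : ℕ) : ℕ := szL.getD i 0
def E0T : BT ℕ := (BT.leaf (nat_lit 0x9004000200002a000000060000940000001000021c01000050000750040001c00018c010000200005600000014000108010000000003100000000000080000000000001))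
def E0 : ℕ → ℕ := rdArr E0T 54 4 18014398509481983 15
def E1T : BT ℕ := (BT.leaf (nat_lit 0x1003000040000a80080000800025c0300005000085008000200001c402000000000620080001000015802000050000430080000c0000c0000000000002))
def E1 : ℕ → ℕ := rdArr E1T 54 4 18014398509481983 15
def E2T : BT ℕ := (BT.leaf (nat_lit 0x40280003000051014000000002780a00006000110040000100007c0280001000035014000100001580a0000e000080000000000003))
def E2 : ℕ → ℕ := rdArr E2T 53 3 9007199254740991 7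
def ES : ℕ → ℕ → ℕ
  | 0 => E0
  | 1 => E1
  | 2 => E2
  | _ => E0
def xW : List ℕ := [2,0]
end

end Cfsg.Agent.H07.CD.M11pT
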