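import Mathlib
import Cfsg.Agent.Lib.H07.CD.M11pXM
set_option autoImplicit false
set_option maxRecDepth 1000000
namespace Cfsg.Agent.H07.CD.M11pX
open Cfsg.Agent.H07.Coset Cfsg.Spor
noncomputable section
theorem c_step_0 : allR F_step 3 (0 * 2 ^ 3) = true := by decide +kernel
theorem c_cell_0 : allR F_cell 2 (0 * 2 ^ 2) = true := by decide +kernel
theorem c_eps_0 : allR F_eps 2 (0 * 2 ^ 2) = true := by decide +kernel
theorem c_fin_0 : allR F_fin 1 (0 * 2 ^ 1) = true := by decide +kernel

end

end Cfsg.Agent.H07.CD.M11pX
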