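import Mathlib
import Cfsg.Agent.Lib.H07.CD.M11pTGD
import Cfsg.Agent.Lib.H07.CD.M11pTGC0
import Cfsg.Agent.Lib.H07.CD.M11pX
set_option autoImplicit false
set_option maxRecDepth 1000000
namespace Cfsg.Agent.H07.CD.M11pT
open Cfsg.Agent.H07.Coset Cfsg.Agent.H07.SimpleT Cfsg.Spor
noncomputable section
theorem hs_lvl0 : ∀ k, k < 10 → (lvlOK T wordS levS E0 10 cJ cn 0 1) k = true :=
  guard_specM (d := 4) (m := 1) (by decide) (by
  intro j hj
  interval_cases j
  · exact c_lvl0_0)

theorem hs_lvl1 : ∀ k, k < 9 → (lvlOK T wordS levS E1 9 cJ cn 1 2) k = true :=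
  guard_specM (d := 4) (m := 1) (by decide) (by
  intro j hj
  interval_cases j
  · exact c_lvl1_0)

theorem hs_lvl2 : ∀ k, k < 8 → (lvlOK T wordS levS E2 8 cJ cn 2 3) k = true :=
  guard_specM (d := 4) (m := 1) (by decide) (by
  intro j hj
  interval_cases j
  · exact c_lvl2_0)

theorem hs_xp : ∀ i, i < cn → Nat.beq (powW T xW 11 i) i = true :=
  guard_specM (d := 4) (m := 1) (by decide) (by
  intro j hj
  interval_cases j
  · exact c_xp_0)


theorem c_w : allR (guard cJ (fun j => (wordS j).all (fun y => Nat.blt y ncol))) 3 0 = true := by decide +kernel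
theorem c_0 : allR (guard cJ (fun j => Nat.beq (walkR T (wordS j) 0) 0)) 3 0 = true := by decide +kernel
theorem c_fix : (List.range cL).all (fun i => (List.range cJ).all (fun j =>
    !(Nat.ble (i + 1) (levS j)) || Nat.beq (walkR T (wordS j) (baseS i)) (baseS i))) = true := by decide +kernel
theorem c_base : (List.range cL).all (fun i => Nat.blt (baseS i) cn) = true := by decide +kernel
theorem c_prod : 7920 = cn * ∏ i ∈ Finset.range cL, szS i := by decide +kernel

theorem htrans : ∀ i : Fin cn, ∃ g, rhoT tabRep.hb tabRep.hi tabRep.hrel g 0 = i :=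
  rhoT_trans' tabRep.hb tabRep.hi tabRep.hrel hdesc

theorem sgs_hw : ∀ j, j < cJ → ∀ y ∈ wordS j, y < ncol := by
  intro j hj y hy
  have h1 := guard_spec (by decide) c_w j hj
  rw [List.all_eq_true] at h1
  exact blt_lt (h1 y hy)

theorem sgs_h0 : ∀ j, j < cJ → walk T 0 (wordS j) = 0 := by
  intro j hj
  have h1 := guard_spec (by decide) c_0 j hj
  rw [walkR_eq] at h1
  exact Nat.eq_of_beq_eq_true h1

theorem sgs_hbase : ∀ i, i < cL → baseS i < cn := by
  intro i hi
  have h := c_base
  rw [List.all_eq_true] at h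
  exact blt_lt (h i (List.mem_range.mpr hi))

theorem sgs_hfix : ∀ i, i < cL → ∀ j, j < cJ → i + 1 ≤ levS j → walk T (baseS i) (wordS j) = baseS i := by
  intro i hi j hj hl
  have h := c_fix
  rw [List.all_eq_true] at h
  have h1 := h i (List.mem_range.mpr hi)
  rw [List.all_eq_true] at h1
  have h2 := h1 j (List.mem_range.mpr hj)
  have h3 : Nat.ble (i + 1) (levS j) = true := Nat.ble_eq_true_of_le hl
  rw [h3] at h2
  simp only [Bool.not_true, Bool.false_or] at h2
  rw [walkR_eq] at h2
  exact Nat.eq_of_beq_eq_true h2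

theorem sgs_hlvl : ∀ i, i < cL → ∀ k, k < szS i → lvlOK T wordS levS (ES i) (szS i) cJ cn i (baseS i) k = true := by
  intro i hi k hk
  interval_cases i
  · exact hs_lvl0 k hk
  · exact hs_lvl1 k hk
  · exact hs_lvl2 k hk

theorem card_lower : 7920 ≤ Nat.card (rhoT tabRep.hb tabRep.hi tabRep.hrel).range := by
  rw [c_prod]
  exact sgs_lower (ncol := ncol) (letter := letter) tabRep hletter wordS levS cJ cL baseS szS ES htrans
    sgs_hw sgs_h0 sgs_hbase sgs_hfix sgs_hlvl

theorem c_xW : xW = wordOf col M11pX.xF.toWord := by decide +kernel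
theorem c_xp0 : Nat.beq (powW T xW 11 0) 0 = true := by decide +kernel
theorem c_xpb : (List.range cL).all (fun i => Nat.beq (powW T xW 11 (baseS i)) (baseS i)) = true := by decide +kernel

end

end Cfsg.Agent.H07.CD.M11pT
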