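import Mathlib
import Cfsg.Agent.Lib.H07.CD.M11pTG
import Cfsg.Agent.Lib.H07.CD.M11pX
import Cfsg.Agent.Lib.H07.CD.M11pU
import Cfsg.Agent.Lib.H07.SimpleT2
import Cfsg.Agent.Lib.H07.CycHub
set_option autoImplicit false
set_option maxRecDepth 100000
namespace Cfsg.Agent.H07.CD.M11pFinal
open Cfsg.Agent.H07.Coset Cfsg.Agent.H07.SimpleT Cfsg.Spor
noncomputable section

abbrev GG : Type := PresentedGroup (coxRelators M11p.edges ∪ {r | r ∈ M11p.extra})

theorem hub : Finite GG ∧ Nat.card GG ≤ 7920 :=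
  hub_of_cyclic (M11p.a * M11p.b) 11 720 (by norm_num) (by right; simp [M11p.extra]) M11pU.hup

open M11pT in
theorem hreach : ∀ iv ∈ ([(1, 11)] : List (ℕ × ℕ)), ∀ i : Fin cn, iv.1 ≤ i.1 → i.1 < iv.2 →
    ∃ h : iv.1 < cn, ∃ k ∈ (Subgroup.closure cS).map (PresentedGroup.mk rels),
      rhoT tabRep.hb tabRep.hi tabRep.hrel k ⟨iv.1, h⟩ = i := by
  intro iv hiv i h1 h2
  simp only [List.mem_cons, List.not_mem_nil, or_false] at hiv
  rcases hiv with rfl
  · exact ⟨by decide, interval_reach tabRep.hb tabRep.hi tabRep.hrel SW hSW' 1 11 (by decide) (by decide)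
      (orbOK_cl hs_orb0 (by decide)) (orbOK_desc hs_orb0 (by decide)) ⟨1, by decide⟩ rfl i h1 h2⟩

open M11pT in
theorem hblock : ∀ O : Finset (Fin cn), 0 ∈ O →
    (∀ k ∈ (Subgroup.closure cS).map (PresentedGroup.mk rels), ∀ i ∈ O, rhoT tabRep.hb tabRep.hi tabRep.hrel k i ∈ O) →
    O.card ∣ cn → O.card = 1 ∨ O.card = cn :=
  hblock_of_intervals _ _ [(1, 11)] (by decide) (by decide) hreach

open M11pT in
theorem result : IsSimpleGroup GG ∧ Nat.card GG = 7920 := by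
  haveI : Finite GG := hub.1
  obtain ⟨hc, hinj⟩ := card_and_inj (rhoT tabRep.hb tabRep.hi tabRep.hrel) hub.2 card_lower
  refine ⟨?_, hc⟩
  haveI : Nontrivial GG := Finite.one_lt_card_iff_nontrivial.mp (by rw [hc]; decide)
  have hx : (PresentedGroup.mk _ M11pX.xF : GG) ^ 11 = 1 :=
    pow_eq_one_of_check tabRep hinj M11pX.xF xW c_xW 11 hs_xp
  exact simple_of_data (rhoT tabRep.hb tabRep.hi tabRep.hrel) hinj htrans _
    (rhoT_fix tabRep.hb tabRep.hi tabRep.hrel hSfix) hblock (p := 11) (a := 1) (by norm_num) (by decide)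
    (by rw [hc]; decide) _ hx
    (fun N hN hxN => normal_top_of_collapse (rels_append _ _ _) M11pX.hup.1 M11pX.hup.2 N hxN)

end

end Cfsg.Agent.H07.CD.M11pFinal
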