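import Mathlib
import Cfsg.Agent.Lib.H07.CD.M11pUM
set_option autoImplicit false
set_option maxRecDepth 1000000
namespace Cfsg.Agent.H07.CD.M11pU
open Cfsg.Agent.H07.Coset Cfsg.Spor
noncomputable section
theorem c_step_0 : allR F_step 13 (0 * 2 ^ 13) = true := by decide +kernel
theorem c_cell_0 : allR F_cell 12 (0 * 2 ^ 12) = true := by decide +kernel
theorem c_eps_0 : allR F_eps 12 (0 * 2 ^ 12) = true := by decide +kernel
theorem c_fin_0 : allR F_fin 10 (0 * 2 ^ 10) = true := by decide +kernel

end

end Cfsg.Agent.H07.CD.M11pU
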