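import Mathlib
import Cfsg.Agent.Lib.H07.Coset4
import Cfsg.Agent.Lib.H07.CD.M11pDef
set_option autoImplicit false
set_option maxRecDepth 1000000
namespace Cfsg.Agent.H07.CD.M11pX
open Cfsg.Agent.H07.Coset Cfsg.Spor
noncomputable section
def cellDT : BT ℕ := (BT.leaf (nat_lit 0xc000000a000000100000024000004a0000021000001))
def epsDT : BT ℕ := (BT.leaf (nat_lit 0x18000001fffffff))
def stpDT : BT ℕ := (BT.leaf (nat_lit 0x1e0000020301000001015b80000001208000004096c00000002800000010040000000000))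
def defDT : BT ℕ := (BT.leaf (nat_lit 0x0))
def tabDT : BT ℕ := (BT.leaf (nat_lit 0x0))
def liveDT : BT ℕ := (BT.leaf (nat_lit 0x0))
end

end Cfsg.Agent.H07.CD.M11pX
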