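import Mathlib
import Cfsg.Agent.Lib.H07.CD.ONTGD
set_option autoImplicit false
set_option maxRecDepth 1000000
namespace Cfsg.Agent.H07.CD.ONT
open Cfsg.Agent.H07.Coset Cfsg.Agent.H07.SimpleT Cfsg.Spor
noncomputable section
theorem c_lvl0_0 : allR (guard 58653 (lvlOK T wordS levS E0 58653 cJ cn 0 1)) 14 (0 * 2 ^ 14) = true := by decide +kernel
theorem c_lvl0_1 : allR (guard 58653 (lvlOK T wordS levS E0 58653 cJ cn 0 1)) 14 (1 * 2 ^ 14) = true := by decide +kernel
theorem c_lvl0_2 : allR (guard 58653 (lvlOK T wordS levS E0 58653 cJ cn 0 1)) 14 (2 * 2 ^ 14) = true := by decide +kernel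
theorem c_lvl0_3 : allR (guard 58653 (lvlOK T wordS levS E0 58653 cJ cn 0 1)) 14 (3 * 2 ^ 14) = true := by decide +kernel
theorem c_lvl1_0 : allR (guard 64 (lvlOK T wordS levS E1 64 cJ cn 1 117573)) 7 (0 * 2 ^ 7) = true := by decide +kernel

end

end Cfsg.Agent.H07.CD.ONT
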