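import Mathlib
import Cfsg.Agent.Lib.H07.CD.ONTG
import Cfsg.Agent.Lib.H07.CD.ONX
import Cfsg.Agent.Lib.H07.CD.ONL1
import Cfsg.Agent.Lib.H07.CD.ONL2
import Cfsg.Agent.Lib.H07.SimpleT2
import Cfsg.Agent.Lib.H07.SimpleT3
set_option autoImplicit false
set_option maxRecDepth 100000
namespace Cfsg.Agent.H07.CD.ONFinal
open Cfsg.Agent.H07.Coset Cfsg.Agent.H07.SimpleT Cfsg.Spor
noncomputable section

abbrev GG : Type := PresentedGroup (coxRelators ON.edges ∪ {r | r ∈ ON.extra})

theorem hub : Finite GG ∧ Nat.card GG ≤ 460815505920 := by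
  have h1 := level_bound ONL2.phi ONL2.hphi ONL2.hup (⊥ : Subgroup GG) (by
    intro s hs
    exact absurd hs (Set.notMem_empty s))
  haveI := h1.1
  have c1 := h1.2
  rw [Subgroup.card_bot, Nat.mul_one] at c1
  have h0 := level_bound ONL1.phi ONL1.hphi ONL1.hup (Subgroup.closure (Set.range ONL2.phi)) (by
    intro s hs
    simp only [ONL1.cS, Set.mem_insert_iff, Set.mem_singleton_iff] at hs
    rcases hs with rfl|rfl|rfl|rfl|rfl
    · rw [show ONL1.LP.a = FreeGroup.of ONL1.LP.Gen.a from rfl, FreeGroup.lift_apply_of]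
      exact Subgroup.subset_closure ⟨.a, rfl⟩
    · rw [show ONL1.LP.c = FreeGroup.of ONL1.LP.Gen.c from rfl, FreeGroup.lift_apply_of]
      exact Subgroup.subset_closure ⟨.c, rfl⟩
    · rw [show ONL1.LP.d = FreeGroup.of ONL1.LP.Gen.d from rfl, FreeGroup.lift_apply_of]
      exact Subgroup.subset_closure ⟨.d, rfl⟩
    · rw [show ONL1.LP.e = FreeGroup.of ONL1.LP.Gen.e from rfl, FreeGroup.lift_apply_of]
      exact Subgroup.subset_closure ⟨.e, rfl⟩
    · rw [show ONL1.LP.f = FreeGroup.of ONL1.LP.Gen.f from rfl, FreeGroup.lift_apply_of]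
      exact Subgroup.subset_closure ⟨.f, rfl⟩)
  haveI := h0.1
  have c0 := le_trans h0.2 (Nat.mul_le_mul_left _ c1)
  have ht := level_bound (fun x => (PresentedGroup.of x : GG)) (lift_top _) ONT.hup (Subgroup.closure (Set.range ONL1.phi)) (by
    intro s hs
    simp only [ONT.cS, Set.mem_insert_iff, Set.mem_singleton_iff] at hs
    rcases hs with rfl|rfl|rfl|rfl|rfl|rfl
    · rw [show ON.a = FreeGroup.of ON.Gen.a from rfl, FreeGroup.lift_apply_of]
      exact Subgroup.subset_closure ⟨.a, rfl⟩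
    · rw [show ON.b = FreeGroup.of ON.Gen.b from rfl, FreeGroup.lift_apply_of]
      exact Subgroup.subset_closure ⟨.b, rfl⟩
    · rw [show ON.c = FreeGroup.of ON.Gen.c from rfl, FreeGroup.lift_apply_of]
      exact Subgroup.subset_closure ⟨.c, rfl⟩
    · rw [show ON.d = FreeGroup.of ON.Gen.d from rfl, FreeGroup.lift_apply_of]
      exact Subgroup.subset_closure ⟨.d, rfl⟩
    · rw [show ON.e = FreeGroup.of ON.Gen.e from rfl, FreeGroup.lift_apply_of]
      exact Subgroup.subset_closure ⟨.e, rfl⟩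
    · rw [show ON.f = FreeGroup.of ON.Gen.f from rfl, FreeGroup.lift_apply_of]
      exact Subgroup.subset_closure ⟨.f, rfl⟩)
  have ct := le_trans ht.2 (Nat.mul_le_mul_left _ c0)
  have hf := top_of_level _ ⟨ht.1, ct⟩
  exact ⟨hf.1, le_trans hf.2 (by decide)⟩

open ONT in
theorem hreach : ∀ iv ∈ ([(1, 58654), (58654, 110790), (110790, 116376), (116376, 122760)] : List (ℕ × ℕ)), ∀ i : Fin cn, iv.1 ≤ i.1 → i.1 < iv.2 →
    ∃ h : iv.1 < cn, ∃ k ∈ (Subgroup.closure cS).map (PresentedGroup.mk rels),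
      rhoT tabRep.hb tabRep.hi tabRep.hrel k ⟨iv.1, h⟩ = i := by
  intro iv hiv i h1 h2
  simp only [List.mem_cons, List.not_mem_nil, or_false] at hiv
  rcases hiv with rfl|rfl|rfl|rfl
  · exact ⟨by decide, interval_reach tabRep.hb tabRep.hi tabRep.hrel SW hSW' 1 58654 (by decide) (by decide)
      (orbOK_cl hs_orb0 (by decide)) (orbOK_desc hs_orb0 (by decide)) ⟨1, by decide⟩ rfl i h1 h2⟩
  · exact ⟨by decide, interval_reach tabRep.hb tabRep.hi tabRep.hrel SW hSW' 58654 110790 (by decide) (by decide)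
      (orbOK_cl hs_orb1 (by decide)) (orbOK_desc hs_orb1 (by decide)) ⟨58654, by decide⟩ rfl i h1 h2⟩
  · exact ⟨by decide, interval_reach tabRep.hb tabRep.hi tabRep.hrel SW hSW' 110790 116376 (by decide) (by decide)
      (orbOK_cl hs_orb2 (by decide)) (orbOK_desc hs_orb2 (by decide)) ⟨110790, by decide⟩ rfl i h1 h2⟩
  · exact ⟨by decide, interval_reach tabRep.hb tabRep.hi tabRep.hrel SW hSW' 116376 122760 (by decide) (by decide)
      (orbOK_cl hs_orb3 (by decide)) (orbOK_desc hs_orb3 (by decide)) ⟨116376, by decide⟩ rfl i h1 h2⟩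

open ONT in
theorem hblock : ∀ O : Finset (Fin cn), 0 ∈ O →
    (∀ k ∈ (Subgroup.closure cS).map (PresentedGroup.mk rels), ∀ i ∈ O, rhoT tabRep.hb tabRep.hi tabRep.hrel k i ∈ O) →
    O.card ∣ cn → O.card = 1 ∨ O.card = cn :=
  hblock_of_intervals _ _ [(1, 58654), (58654, 110790), (110790, 116376), (116376, 122760)] (by decide) (by decide) hreach

open ONT in
theorem result : IsSimpleGroup GG ∧ Nat.card GG = 460815505920 := by
  haveI : Finite GG := hub.1
  obtain ⟨hc, hinj⟩ := card_and_inj (rhoT tabRep.hb tabRep.hi tabRep.hrel) hub.2 card_lower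
  refine ⟨?_, hc⟩
  haveI : Nontrivial GG := Finite.one_lt_card_iff_nontrivial.mp (by rw [hc]; decide)
  have hr : Nat.card (rhoT tabRep.hb tabRep.hi tabRep.hrel).range ≤ cn * ∏ i ∈ Finset.range cL, szS i := by
    rw [← c_prod, ← hc]
    exact Nat.card_le_card_of_surjective _ (rhoT tabRep.hb tabRep.hi tabRep.hrel).rangeRestrict_surjective
  have hx : (PresentedGroup.mk _ ONX.xF : GG) ^ 31 = 1 :=
    pow_eq_one_of_base (ncol := ncol) (letter := letter) tabRep hinj hletter wordS levS cJ cL baseS szS ES htrans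
      sgs_hw sgs_h0 sgs_hbase sgs_hfix sgs_hlvl hr ONX.xF xW c_xW 31 c_xp0 (fun i hi => by
        have h := c_xpb
        rw [List.all_eq_true] at h
        exact h i (List.mem_range.mpr hi))
  exact simple_of_data (rhoT tabRep.hb tabRep.hi tabRep.hrel) hinj htrans _
    (rhoT_fix tabRep.hb tabRep.hi tabRep.hrel hSfix) hblock (p := 31) (a := 1) (by norm_num) (by decide)
    (by rw [hc]; decide) _ hx
    (fun N hN hxN => normal_top_of_collapse (rels_append _ _ _) ONX.hup.1 ONX.hup.2 N hxN)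

end

end Cfsg.Agent.H07.CD.ONFinal
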