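import Mathlib
import Cfsg.Agent.Lib.H07.CD.ONL1M
set_option autoImplicit false
set_option maxRecDepth 1000000
namespace Cfsg.Agent.H07.CD.ONL1
open Cfsg.Agent.H07.Coset Cfsg.Spor
noncomputable section
theorem c_step_0 : allR F_step 12 (0 * 2 ^ 12) = true := by decide +kernel
theorem c_step_1 : allR F_step 12 (1 * 2 ^ 12) = true := by decide +kernel
theorem c_step_2 : allR F_step 12 (2 * 2 ^ 12) = true := by decide +kernel
theorem c_step_3 : allR F_step 12 (3 * 2 ^ 12) = true := by decide +kernel
theorem c_step_4 : allR F_step 12 (4 * 2 ^ 12) = true := by decide +kernel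
theorem c_step_5 : allR F_step 12 (5 * 2 ^ 12) = true := by decide +kernel
theorem c_step_6 : allR F_step 12 (6 * 2 ^ 12) = true := by decide +kernel
theorem c_step_7 : allR F_step 12 (7 * 2 ^ 12) = true := by decide +kernel
theorem c_step_8 : allR F_step 12 (8 * 2 ^ 12) = true := by decide +kernel
theorem c_cell_0_l : allR F_cell 12 (0 * 2 ^ 13) = true := by decide +kernel
theorem c_cell_0_r : allR F_cell 12 (0 * 2 ^ 13 + 2 ^ 12) = true := by decide +kernel
theorem c_cell_0 : allR F_cell 13 (0 * 2 ^ 13) = true := allR_of_parts F_cell 12 _ c_cell_0_l c_cell_0_r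
theorem c_eps_0_l : allR F_eps 12 (0 * 2 ^ 13) = true := by decide +kernel
theorem c_eps_0_r : allR F_eps 12 (0 * 2 ^ 13 + 2 ^ 12) = true := by decide +kernel
theorem c_eps_0 : allR F_eps 13 (0 * 2 ^ 13) = true := allR_of_parts F_eps 12 _ c_eps_0_l c_eps_0_r
theorem c_fin_0 : allR F_fin 12 (0 * 2 ^ 12) = true := by decide +kernel
theorem c_fin_1 : allR F_fin 12 (1 * 2 ^ 12) = true := by decide +kernel

end

end Cfsg.Agent.H07.CD.ONL1
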