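import Mathlib
import Cfsg.Agent.Lib.H07.CD.ONTM
set_option autoImplicit false
set_option maxRecDepth 1000000
namespace Cfsg.Agent.H07.CD.ONT
open Cfsg.Agent.H07.Coset Cfsg.Spor
noncomputable section
theorem c_step_130 : allR F_step 12 (130 * 2 ^ 12) = true := by decide +kernel
theorem c_step_131 : allR F_step 12 (131 * 2 ^ 12) = true := by decide +kernel
theorem c_step_132 : allR F_step 12 (132 * 2 ^ 12) = true := by decide +kernel
theorem c_step_133 : allR F_step 12 (133 * 2 ^ 12) = true := by decide +kernel
theorem c_step_134 : allR F_step 12 (134 * 2 ^ 12) = true := by decide +kernel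
theorem c_step_135 : allR F_step 12 (135 * 2 ^ 12) = true := by decide +kernel
theorem c_step_136 : allR F_step 12 (136 * 2 ^ 12) = true := by decide +kernel
theorem c_step_137 : allR F_step 12 (137 * 2 ^ 12) = true := by decide +kernel
theorem c_step_138 : allR F_step 12 (138 * 2 ^ 12) = true := by decide +kernel
theorem c_step_139 : allR F_step 12 (139 * 2 ^ 12) = true := by decide +kernel
theorem c_step_140 : allR F_step 12 (140 * 2 ^ 12) = true := by decide +kernel
theorem c_step_141 : allR F_step 12 (141 * 2 ^ 12) = true := by decide +kernel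
theorem c_step_142 : allR F_step 12 (142 * 2 ^ 12) = true := by decide +kernel

end

end Cfsg.Agent.H07.CD.ONT
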