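import Mathlib
import Cfsg.Agent.Lib.H07.CD.ONTM
set_option autoImplicit false
set_option maxRecDepth 1000000
namespace Cfsg.Agent.H07.CD.ONT
open Cfsg.Agent.H07.Coset Cfsg.Spor
noncomputable section
theorem c_step_143 : allR F_step 12 (143 * 2 ^ 12) = true := by decide +kernel
theorem c_step_144 : allR F_step 12 (144 * 2 ^ 12) = true := by decide +kernel
theorem c_step_145 : allR F_step 12 (145 * 2 ^ 12) = true := by decide +kernel
theorem c_step_146 : allR F_step 12 (146 * 2 ^ 12) = true := by decide +kernel
theorem c_step_147 : allR F_step 12 (147 * 2 ^ 12) = true := by decide +kernel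
theorem c_step_148 : allR F_step 12 (148 * 2 ^ 12) = true := by decide +kernel
theorem c_step_149 : allR F_step 12 (149 * 2 ^ 12) = true := by decide +kernel
theorem c_step_150 : allR F_step 12 (150 * 2 ^ 12) = true := by decide +kernel
theorem c_step_151 : allR F_step 12 (151 * 2 ^ 12) = true := by decide +kernel
theorem c_step_152 : allR F_step 12 (152 * 2 ^ 12) = true := by decide +kernel
theorem c_step_153 : allR F_step 12 (153 * 2 ^ 12) = true := by decide +kernel
theorem c_step_154 : allR F_step 12 (154 * 2 ^ 12) = true := by decide +kernel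
theorem c_step_155 : allR F_step 12 (155 * 2 ^ 12) = true := by decide +kernel

end

end Cfsg.Agent.H07.CD.ONT
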