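import Mathlib
import Cfsg.Agent.Lib.H07.CD.ONTM
set_option autoImplicit false
set_option maxRecDepth 1000000
namespace Cfsg.Agent.H07.CD.ONT
open Cfsg.Agent.H07.Coset Cfsg.Spor
noncomputable section
theorem c_step_156 : allR F_step 12 (156 * 2 ^ 12) = true := by decide +kernel
theorem c_step_157 : allR F_step 12 (157 * 2 ^ 12) = true := by decide +kernel
theorem c_step_158 : allR F_step 12 (158 * 2 ^ 12) = true := by decide +kernel
theorem c_step_159 : allR F_step 12 (159 * 2 ^ 12) = true := by decide +kernel
theorem c_step_160 : allR F_step 12 (160 * 2 ^ 12) = true := by decide +kernel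
theorem c_step_161 : allR F_step 12 (161 * 2 ^ 12) = true := by decide +kernel
theorem c_step_162 : allR F_step 12 (162 * 2 ^ 12) = true := by decide +kernel
theorem c_step_163 : allR F_step 12 (163 * 2 ^ 12) = true := by decide +kernel
theorem c_step_164 : allR F_step 12 (164 * 2 ^ 12) = true := by decide +kernel
theorem c_step_165 : allR F_step 12 (165 * 2 ^ 12) = true := by decide +kernel
theorem c_step_166 : allR F_step 12 (166 * 2 ^ 12) = true := by decide +kernel
theorem c_step_167 : allR F_step 12 (167 * 2 ^ 12) = true := by decide +kernel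
theorem c_step_168 : allR F_step 12 (168 * 2 ^ 12) = true := by decide +kernel

end

end Cfsg.Agent.H07.CD.ONT
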