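import Mathlib
import Cfsg.Agent.Lib.H07.CD.ONTM
set_option autoImplicit false
set_option maxRecDepth 1000000
namespace Cfsg.Agent.H07.CD.ONT
open Cfsg.Agent.H07.Coset Cfsg.Spor
noncomputable section
theorem c_step_208 : allR F_step 12 (208 * 2 ^ 12) = true := by decide +kernel
theorem c_step_209 : allR F_step 12 (209 * 2 ^ 12) = true := by decide +kernel
theorem c_step_210 : allR F_step 12 (210 * 2 ^ 12) = true := by decide +kernel
theorem c_step_211 : allR F_step 12 (211 * 2 ^ 12) = true := by decide +kernel
theorem c_step_212 : allR F_step 12 (212 * 2 ^ 12) = true := by decide +kernel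
theorem c_step_213 : allR F_step 12 (213 * 2 ^ 12) = true := by decide +kernel
theorem c_step_214 : allR F_step 12 (214 * 2 ^ 12) = true := by decide +kernel
theorem c_step_215 : allR F_step 12 (215 * 2 ^ 12) = true := by decide +kernel
theorem c_step_216 : allR F_step 12 (216 * 2 ^ 12) = true := by decide +kernel
theorem c_step_217 : allR F_step 12 (217 * 2 ^ 12) = true := by decide +kernel
theorem c_step_218 : allR F_step 12 (218 * 2 ^ 12) = true := by decide +kernel
theorem c_step_219 : allR F_step 12 (219 * 2 ^ 12) = true := by decide +kernel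
theorem c_step_220 : allR F_step 12 (220 * 2 ^ 12) = true := by decide +kernel

end

end Cfsg.Agent.H07.CD.ONT
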