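import Mathlib
import Cfsg.Agent.Lib.H07.CD.ONTM
set_option autoImplicit false
set_option maxRecDepth 1000000
namespace Cfsg.Agent.H07.CD.ONT
open Cfsg.Agent.H07.Coset Cfsg.Spor
noncomputable section
theorem c_step_221 : allR F_step 12 (221 * 2 ^ 12) = true := by decide +kernel
theorem c_step_222 : allR F_step 12 (222 * 2 ^ 12) = true := by decide +kernel
theorem c_step_223 : allR F_step 12 (223 * 2 ^ 12) = true := by decide +kernel
theorem c_step_224 : allR F_step 12 (224 * 2 ^ 12) = true := by decide +kernel
theorem c_step_225 : allR F_step 12 (225 * 2 ^ 12) = true := by decide +kernel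
theorem c_step_226 : allR F_step 12 (226 * 2 ^ 12) = true := by decide +kernel
theorem c_step_227 : allR F_step 12 (227 * 2 ^ 12) = true := by decide +kernel
theorem c_step_228 : allR F_step 12 (228 * 2 ^ 12) = true := by decide +kernel
theorem c_step_229 : allR F_step 12 (229 * 2 ^ 12) = true := by decide +kernel
theorem c_step_230 : allR F_step 12 (230 * 2 ^ 12) = true := by decide +kernel
theorem c_step_231 : allR F_step 12 (231 * 2 ^ 12) = true := by decide +kernel
theorem c_step_232 : allR F_step 12 (232 * 2 ^ 12) = true := by decide +kernel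
theorem c_step_233 : allR F_step 12 (233 * 2 ^ 12) = true := by decide +kernel

end

end Cfsg.Agent.H07.CD.ONT
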