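import Mathlib
import Cfsg.Agent.Lib.H07.CD.ONTM
set_option autoImplicit false
set_option maxRecDepth 1000000
namespace Cfsg.Agent.H07.CD.ONT
open Cfsg.Agent.H07.Coset Cfsg.Spor
noncomputable section
theorem c_step_234 : allR F_step 12 (234 * 2 ^ 12) = true := by decide +kernel
theorem c_step_235 : allR F_step 12 (235 * 2 ^ 12) = true := by decide +kernel
theorem c_step_236 : allR F_step 12 (236 * 2 ^ 12) = true := by decide +kernel
theorem c_step_237 : allR F_step 12 (237 * 2 ^ 12) = true := by decide +kernel
theorem c_step_238 : allR F_step 12 (238 * 2 ^ 12) = true := by decide +kernel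
theorem c_step_239 : allR F_step 12 (239 * 2 ^ 12) = true := by decide +kernel
theorem c_step_240 : allR F_step 12 (240 * 2 ^ 12) = true := by decide +kernel
theorem c_step_241 : allR F_step 12 (241 * 2 ^ 12) = true := by decide +kernel
theorem c_step_242 : allR F_step 12 (242 * 2 ^ 12) = true := by decide +kernel
theorem c_step_243 : allR F_step 12 (243 * 2 ^ 12) = true := by decide +kernel
theorem c_step_244 : allR F_step 12 (244 * 2 ^ 12) = true := by decide +kernel
theorem c_step_245 : allR F_step 12 (245 * 2 ^ 12) = true := by decide +kernel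
theorem c_step_246 : allR F_step 12 (246 * 2 ^ 12) = true := by decide +kernel

end

end Cfsg.Agent.H07.CD.ONT
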