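import Mathlib
import Cfsg.Agent.Lib.H07.CD.ONTM
set_option autoImplicit false
set_option maxRecDepth 1000000
namespace Cfsg.Agent.H07.CD.ONT
open Cfsg.Agent.H07.Coset Cfsg.Spor
noncomputable section
theorem c_step_247 : allR F_step 12 (247 * 2 ^ 12) = true := by decide +kernel
theorem c_step_248 : allR F_step 12 (248 * 2 ^ 12) = true := by decide +kernel
theorem c_step_249 : allR F_step 12 (249 * 2 ^ 12) = true := by decide +kernel
theorem c_step_250 : allR F_step 12 (250 * 2 ^ 12) = true := by decide +kernel
theorem c_step_251 : allR F_step 12 (251 * 2 ^ 12) = true := by decide +kernel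
theorem c_step_252 : allR F_step 12 (252 * 2 ^ 12) = true := by decide +kernel
theorem c_step_253 : allR F_step 12 (253 * 2 ^ 12) = true := by decide +kernel
theorem c_step_254 : allR F_step 12 (254 * 2 ^ 12) = true := by decide +kernel
theorem c_step_255 : allR F_step 12 (255 * 2 ^ 12) = true := by decide +kernel
theorem c_step_256 : allR F_step 12 (256 * 2 ^ 12) = true := by decide +kernel
theorem c_step_257 : allR F_step 12 (257 * 2 ^ 12) = true := by decide +kernel
theorem c_step_258 : allR F_step 12 (258 * 2 ^ 12) = true := by decide +kernel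
theorem c_step_259 : allR F_step 12 (259 * 2 ^ 12) = true := by decide +kernel

end

end Cfsg.Agent.H07.CD.ONT
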