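import Mathlib
import Cfsg.Agent.Lib.H07.CD.ONTM
set_option autoImplicit false
set_option maxRecDepth 1000000
namespace Cfsg.Agent.H07.CD.ONT
open Cfsg.Agent.H07.Coset Cfsg.Spor
noncomputable section
theorem c_step_260 : allR F_step 12 (260 * 2 ^ 12) = true := by decide +kernel
theorem c_step_261 : allR F_step 12 (261 * 2 ^ 12) = true := by decide +kernel
theorem c_step_262 : allR F_step 12 (262 * 2 ^ 12) = true := by decide +kernel
theorem c_step_263 : allR F_step 12 (263 * 2 ^ 12) = true := by decide +kernel
theorem c_step_264 : allR F_step 12 (264 * 2 ^ 12) = true := by decide +kernel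
theorem c_step_265 : allR F_step 12 (265 * 2 ^ 12) = true := by decide +kernel
theorem c_step_266 : allR F_step 12 (266 * 2 ^ 12) = true := by decide +kernel
theorem c_step_267 : allR F_step 12 (267 * 2 ^ 12) = true := by decide +kernel
theorem c_step_268 : allR F_step 12 (268 * 2 ^ 12) = true := by decide +kernel
theorem c_step_269 : allR F_step 12 (269 * 2 ^ 12) = true := by decide +kernel
theorem c_step_270 : allR F_step 12 (270 * 2 ^ 12) = true := by decide +kernel
theorem c_step_271 : allR F_step 12 (271 * 2 ^ 12) = true := by decide +kernel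
theorem c_step_272 : allR F_step 12 (272 * 2 ^ 12) = true := by decide +kernel

end

end Cfsg.Agent.H07.CD.ONT
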