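import Mathlib
import Cfsg.Agent.Lib.H07.CD.ONTM
set_option autoImplicit false
set_option maxRecDepth 1000000
namespace Cfsg.Agent.H07.CD.ONT
open Cfsg.Agent.H07.Coset Cfsg.Spor
noncomputable section
theorem c_step_273 : allR F_step 12 (273 * 2 ^ 12) = true := by decide +kernel
theorem c_step_274 : allR F_step 12 (274 * 2 ^ 12) = true := by decide +kernel
theorem c_step_275 : allR F_step 12 (275 * 2 ^ 12) = true := by decide +kernel
theorem c_step_276 : allR F_step 12 (276 * 2 ^ 12) = true := by decide +kernel
theorem c_step_277 : allR F_step 12 (277 * 2 ^ 12) = true := by decide +kernel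
theorem c_step_278 : allR F_step 12 (278 * 2 ^ 12) = true := by decide +kernel
theorem c_step_279 : allR F_step 12 (279 * 2 ^ 12) = true := by decide +kernel
theorem c_step_280 : allR F_step 12 (280 * 2 ^ 12) = true := by decide +kernel
theorem c_step_281 : allR F_step 12 (281 * 2 ^ 12) = true := by decide +kernel
theorem c_step_282 : allR F_step 12 (282 * 2 ^ 12) = true := by decide +kernel
theorem c_step_283 : allR F_step 12 (283 * 2 ^ 12) = true := by decide +kernel
theorem c_step_284 : allR F_step 12 (284 * 2 ^ 12) = true := by decide +kernel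
theorem c_step_285 : allR F_step 12 (285 * 2 ^ 12) = true := by decide +kernel

end

end Cfsg.Agent.H07.CD.ONT
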