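import Mathlib
import Cfsg.Agent.Lib.H07.CD.ONTM
set_option autoImplicit false
set_option maxRecDepth 1000000
namespace Cfsg.Agent.H07.CD.ONT
open Cfsg.Agent.H07.Coset Cfsg.Spor
noncomputable section
theorem c_step_286 : allR F_step 12 (286 * 2 ^ 12) = true := by decide +kernel
theorem c_step_287 : allR F_step 12 (287 * 2 ^ 12) = true := by decide +kernel
theorem c_step_288 : allR F_step 12 (288 * 2 ^ 12) = true := by decide +kernel
theorem c_step_289 : allR F_step 12 (289 * 2 ^ 12) = true := by decide +kernel
theorem c_step_290 : allR F_step 12 (290 * 2 ^ 12) = true := by decide +kernel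
theorem c_step_291 : allR F_step 12 (291 * 2 ^ 12) = true := by decide +kernel
theorem c_step_292 : allR F_step 12 (292 * 2 ^ 12) = true := by decide +kernel
theorem c_step_293 : allR F_step 12 (293 * 2 ^ 12) = true := by decide +kernel
theorem c_step_294 : allR F_step 12 (294 * 2 ^ 12) = true := by decide +kernel
theorem c_step_295 : allR F_step 12 (295 * 2 ^ 12) = true := by decide +kernel
theorem c_step_296 : allR F_step 12 (296 * 2 ^ 12) = true := by decide +kernel
theorem c_step_297 : allR F_step 12 (297 * 2 ^ 12) = true := by decide +kernel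
theorem c_step_298 : allR F_step 12 (298 * 2 ^ 12) = true := by decide +kernel

end

end Cfsg.Agent.H07.CD.ONT
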