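import Mathlib
import Cfsg.Agent.Lib.H07.CD.ONTM
set_option autoImplicit false
set_option maxRecDepth 1000000
namespace Cfsg.Agent.H07.CD.ONT
open Cfsg.Agent.H07.Coset Cfsg.Spor
noncomputable section
theorem c_fin_1 : allR F_fin 12 (1 * 2 ^ 12) = true := by decide +kernel
theorem c_fin_2 : allR F_fin 12 (2 * 2 ^ 12) = true := by decide +kernel
theorem c_fin_3 : allR F_fin 12 (3 * 2 ^ 12) = true := by decide +kernel
theorem c_fin_4 : allR F_fin 12 (4 * 2 ^ 12) = true := by decide +kernel
theorem c_fin_5 : allR F_fin 12 (5 * 2 ^ 12) = true := by decide +kernel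
theorem c_fin_6 : allR F_fin 12 (6 * 2 ^ 12) = true := by decide +kernel
theorem c_fin_7 : allR F_fin 12 (7 * 2 ^ 12) = true := by decide +kernel
theorem c_fin_8 : allR F_fin 12 (8 * 2 ^ 12) = true := by decide +kernel

end

end Cfsg.Agent.H07.CD.ONT
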