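import Mathlib
import Cfsg.Agent.Lib.H07.CD.ONTM
set_option autoImplicit false
set_option maxRecDepth 1000000
namespace Cfsg.Agent.H07.CD.ONT
open Cfsg.Agent.H07.Coset Cfsg.Spor
noncomputable section
theorem c_fin_9 : allR F_fin 12 (9 * 2 ^ 12) = true := by decide +kernel
theorem c_fin_10 : allR F_fin 12 (10 * 2 ^ 12) = true := by decide +kernel
theorem c_fin_11 : allR F_fin 12 (11 * 2 ^ 12) = true := by decide +kernel
theorem c_fin_12 : allR F_fin 12 (12 * 2 ^ 12) = true := by decide +kernel
theorem c_fin_13 : allR F_fin 12 (13 * 2 ^ 12) = true := by decide +kernel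
theorem c_fin_14 : allR F_fin 12 (14 * 2 ^ 12) = true := by decide +kernel
theorem c_fin_15 : allR F_fin 12 (15 * 2 ^ 12) = true := by decide +kernel
theorem c_fin_16 : allR F_fin 12 (16 * 2 ^ 12) = true := by decide +kernel

end

end Cfsg.Agent.H07.CD.ONT
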