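import Mathlib
import Cfsg.Agent.Lib.H07.CD.ONTM
set_option autoImplicit false
set_option maxRecDepth 1000000
namespace Cfsg.Agent.H07.CD.ONT
open Cfsg.Agent.H07.Coset Cfsg.Spor
noncomputable section
theorem c_rel_4 : allR F_rel 9 (4 * 2 ^ 9) = true := by decide +kernel
theorem c_rel_5 : allR F_rel 9 (5 * 2 ^ 9) = true := by decide +kernel
theorem c_rel_6 : allR F_rel 9 (6 * 2 ^ 9) = true := by decide +kernel
theorem c_rel_7 : allR F_rel 9 (7 * 2 ^ 9) = true := by decide +kernel
theorem c_rel_8 : allR F_rel 9 (8 * 2 ^ 9) = true := by decide +kernel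
theorem c_rel_9 : allR F_rel 9 (9 * 2 ^ 9) = true := by decide +kernel
theorem c_rel_10 : allR F_rel 9 (10 * 2 ^ 9) = true := by decide +kernel
theorem c_rel_11 : allR F_rel 9 (11 * 2 ^ 9) = true := by decide +kernel
theorem c_rel_12 : allR F_rel 9 (12 * 2 ^ 9) = true := by decide +kernel
theorem c_rel_13 : allR F_rel 9 (13 * 2 ^ 9) = true := by decide +kernel
theorem c_rel_14 : allR F_rel 9 (14 * 2 ^ 9) = true := by decide +kernel
theorem c_rel_15 : allR F_rel 9 (15 * 2 ^ 9) = true := by decide +kernel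

end

end Cfsg.Agent.H07.CD.ONT
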