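import Mathlib
import Cfsg.Agent.Lib.H07.CD.ONTM
set_option autoImplicit false
set_option maxRecDepth 1000000
namespace Cfsg.Agent.H07.CD.ONT
open Cfsg.Agent.H07.Coset Cfsg.Spor
noncomputable section
theorem c_rel_16 : allR F_rel 9 (16 * 2 ^ 9) = true := by decide +kernel
theorem c_rel_17 : allR F_rel 9 (17 * 2 ^ 9) = true := by decide +kernel
theorem c_rel_18 : allR F_rel 9 (18 * 2 ^ 9) = true := by decide +kernel
theorem c_rel_19 : allR F_rel 9 (19 * 2 ^ 9) = true := by decide +kernel
theorem c_rel_20 : allR F_rel 9 (20 * 2 ^ 9) = true := by decide +kernel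
theorem c_rel_21 : allR F_rel 9 (21 * 2 ^ 9) = true := by decide +kernel
theorem c_rel_22 : allR F_rel 9 (22 * 2 ^ 9) = true := by decide +kernel
theorem c_rel_23 : allR F_rel 9 (23 * 2 ^ 9) = true := by decide +kernel
theorem c_rel_24 : allR F_rel 9 (24 * 2 ^ 9) = true := by decide +kernel
theorem c_rel_25 : allR F_rel 9 (25 * 2 ^ 9) = true := by decide +kernel
theorem c_rel_26 : allR F_rel 9 (26 * 2 ^ 9) = true := by decide +kernel
theorem c_rel_27 : allR F_rel 9 (27 * 2 ^ 9) = true := by decide +kernel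

end

end Cfsg.Agent.H07.CD.ONT
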