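import Mathlib
import Cfsg.Agent.Lib.H07.CD.ONTM
set_option autoImplicit false
set_option maxRecDepth 1000000
namespace Cfsg.Agent.H07.CD.ONT
open Cfsg.Agent.H07.Coset Cfsg.Spor
noncomputable section
theorem c_rel_28 : allR F_rel 9 (28 * 2 ^ 9) = true := by decide +kernel
theorem c_rel_29 : allR F_rel 9 (29 * 2 ^ 9) = true := by decide +kernel
theorem c_rel_30 : allR F_rel 9 (30 * 2 ^ 9) = true := by decide +kernel
theorem c_rel_31 : allR F_rel 9 (31 * 2 ^ 9) = true := by decide +kernel
theorem c_rel_32 : allR F_rel 9 (32 * 2 ^ 9) = true := by decide +kernel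
theorem c_rel_33 : allR F_rel 9 (33 * 2 ^ 9) = true := by decide +kernel
theorem c_rel_34 : allR F_rel 9 (34 * 2 ^ 9) = true := by decide +kernel
theorem c_rel_35 : allR F_rel 9 (35 * 2 ^ 9) = true := by decide +kernel
theorem c_rel_36 : allR F_rel 9 (36 * 2 ^ 9) = true := by decide +kernel
theorem c_rel_37 : allR F_rel 9 (37 * 2 ^ 9) = true := by decide +kernel
theorem c_rel_38 : allR F_rel 9 (38 * 2 ^ 9) = true := by decide +kernel
theorem c_rel_39 : allR F_rel 9 (39 * 2 ^ 9) = true := by decide +kernel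

end

end Cfsg.Agent.H07.CD.ONT
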