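import Mathlib
import Cfsg.Agent.Lib.H07.CD.ONTM
set_option autoImplicit false
set_option maxRecDepth 1000000
namespace Cfsg.Agent.H07.CD.ONT
open Cfsg.Agent.H07.Coset Cfsg.Spor
noncomputable section
theorem c_rel_40 : allR F_rel 9 (40 * 2 ^ 9) = true := by decide +kernel
theorem c_rel_41 : allR F_rel 9 (41 * 2 ^ 9) = true := by decide +kernel
theorem c_rel_42 : allR F_rel 9 (42 * 2 ^ 9) = true := by decide +kernel
theorem c_rel_43 : allR F_rel 9 (43 * 2 ^ 9) = true := by decide +kernel
theorem c_rel_44 : allR F_rel 9 (44 * 2 ^ 9) = true := by decide +kernel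
theorem c_rel_45 : allR F_rel 9 (45 * 2 ^ 9) = true := by decide +kernel
theorem c_rel_46 : allR F_rel 9 (46 * 2 ^ 9) = true := by decide +kernel
theorem c_rel_47 : allR F_rel 9 (47 * 2 ^ 9) = true := by decide +kernel
theorem c_rel_48 : allR F_rel 9 (48 * 2 ^ 9) = true := by decide +kernel
theorem c_rel_49 : allR F_rel 9 (49 * 2 ^ 9) = true := by decide +kernel
theorem c_rel_50 : allR F_rel 9 (50 * 2 ^ 9) = true := by decide +kernel
theorem c_rel_51 : allR F_rel 9 (51 * 2 ^ 9) = true := by decide +kernel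

end

end Cfsg.Agent.H07.CD.ONT
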