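import Mathlib
import Cfsg.Agent.Lib.H07.CD.ONTM
set_option autoImplicit false
set_option maxRecDepth 1000000
namespace Cfsg.Agent.H07.CD.ONT
open Cfsg.Agent.H07.Coset Cfsg.Spor
noncomputable section
theorem c_rel_52 : allR F_rel 9 (52 * 2 ^ 9) = true := by decide +kernel
theorem c_rel_53 : allR F_rel 9 (53 * 2 ^ 9) = true := by decide +kernel
theorem c_rel_54 : allR F_rel 9 (54 * 2 ^ 9) = true := by decide +kernel
theorem c_rel_55 : allR F_rel 9 (55 * 2 ^ 9) = true := by decide +kernel
theorem c_rel_56 : allR F_rel 9 (56 * 2 ^ 9) = true := by decide +kernel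
theorem c_rel_57 : allR F_rel 9 (57 * 2 ^ 9) = true := by decide +kernel
theorem c_rel_58 : allR F_rel 9 (58 * 2 ^ 9) = true := by decide +kernel
theorem c_rel_59 : allR F_rel 9 (59 * 2 ^ 9) = true := by decide +kernel
theorem c_rel_60 : allR F_rel 9 (60 * 2 ^ 9) = true := by decide +kernel
theorem c_rel_61 : allR F_rel 9 (61 * 2 ^ 9) = true := by decide +kernel
theorem c_rel_62 : allR F_rel 9 (62 * 2 ^ 9) = true := by decide +kernel
theorem c_rel_63 : allR F_rel 9 (63 * 2 ^ 9) = true := by decide +kernel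

end

end Cfsg.Agent.H07.CD.ONT
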