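import Mathlib
import Cfsg.Agent.Lib.H07.CD.ONTM
set_option autoImplicit false
set_option maxRecDepth 1000000
namespace Cfsg.Agent.H07.CD.ONT
open Cfsg.Agent.H07.Coset Cfsg.Spor
noncomputable section
theorem c_rel_88 : allR F_rel 9 (88 * 2 ^ 9) = true := by decide +kernel
theorem c_rel_89 : allR F_rel 9 (89 * 2 ^ 9) = true := by decide +kernel
theorem c_rel_90 : allR F_rel 9 (90 * 2 ^ 9) = true := by decide +kernel
theorem c_rel_91 : allR F_rel 9 (91 * 2 ^ 9) = true := by decide +kernel
theorem c_rel_92 : allR F_rel 9 (92 * 2 ^ 9) = true := by decide +kernel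
theorem c_rel_93 : allR F_rel 9 (93 * 2 ^ 9) = true := by decide +kernel
theorem c_rel_94 : allR F_rel 9 (94 * 2 ^ 9) = true := by decide +kernel
theorem c_rel_95 : allR F_rel 9 (95 * 2 ^ 9) = true := by decide +kernel
theorem c_rel_96 : allR F_rel 9 (96 * 2 ^ 9) = true := by decide +kernel
theorem c_rel_97 : allR F_rel 9 (97 * 2 ^ 9) = true := by decide +kernel
theorem c_rel_98 : allR F_rel 9 (98 * 2 ^ 9) = true := by decide +kernel
theorem c_rel_99 : allR F_rel 9 (99 * 2 ^ 9) = true := by decide +kernel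

end

end Cfsg.Agent.H07.CD.ONT
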