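import Mathlib
import Cfsg.Agent.Lib.H07.CD.ONTM
set_option autoImplicit false
set_option maxRecDepth 1000000
namespace Cfsg.Agent.H07.CD.ONT
open Cfsg.Agent.H07.Coset Cfsg.Spor
noncomputable section
theorem c_rel_100 : allR F_rel 9 (100 * 2 ^ 9) = true := by decide +kernel
theorem c_rel_101 : allR F_rel 9 (101 * 2 ^ 9) = true := by decide +kernel
theorem c_rel_102 : allR F_rel 9 (102 * 2 ^ 9) = true := by decide +kernel
theorem c_rel_103 : allR F_rel 9 (103 * 2 ^ 9) = true := by decide +kernel
theorem c_rel_104 : allR F_rel 9 (104 * 2 ^ 9) = true := by decide +kernel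
theorem c_rel_105 : allR F_rel 9 (105 * 2 ^ 9) = true := by decide +kernel
theorem c_rel_106 : allR F_rel 9 (106 * 2 ^ 9) = true := by decide +kernel
theorem c_rel_107 : allR F_rel 9 (107 * 2 ^ 9) = true := by decide +kernel
theorem c_rel_108 : allR F_rel 9 (108 * 2 ^ 9) = true := by decide +kernel
theorem c_rel_109 : allR F_rel 9 (109 * 2 ^ 9) = true := by decide +kernel
theorem c_rel_110 : allR F_rel 9 (110 * 2 ^ 9) = true := by decide +kernel
theorem c_rel_111 : allR F_rel 9 (111 * 2 ^ 9) = true := by decide +kernel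

end

end Cfsg.Agent.H07.CD.ONT
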