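import Mathlib
import Cfsg.Agent.Lib.H07.CD.ONTM
set_option autoImplicit false
set_option maxRecDepth 1000000
namespace Cfsg.Agent.H07.CD.ONT
open Cfsg.Agent.H07.Coset Cfsg.Spor
noncomputable section
theorem c_rel_112 : allR F_rel 9 (112 * 2 ^ 9) = true := by decide +kernel
theorem c_rel_113 : allR F_rel 9 (113 * 2 ^ 9) = true := by decide +kernel
theorem c_rel_114 : allR F_rel 9 (114 * 2 ^ 9) = true := by decide +kernel
theorem c_rel_115 : allR F_rel 9 (115 * 2 ^ 9) = true := by decide +kernel
theorem c_rel_116 : allR F_rel 9 (116 * 2 ^ 9) = true := by decide +kernel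
theorem c_rel_117 : allR F_rel 9 (117 * 2 ^ 9) = true := by decide +kernel
theorem c_rel_118 : allR F_rel 9 (118 * 2 ^ 9) = true := by decide +kernel
theorem c_rel_119 : allR F_rel 9 (119 * 2 ^ 9) = true := by decide +kernel
theorem c_rel_120 : allR F_rel 9 (120 * 2 ^ 9) = true := by decide +kernel
theorem c_rel_121 : allR F_rel 9 (121 * 2 ^ 9) = true := by decide +kernel
theorem c_rel_122 : allR F_rel 9 (122 * 2 ^ 9) = true := by decide +kernel
theorem c_rel_123 : allR F_rel 9 (123 * 2 ^ 9) = true := by decide +kernel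

end

end Cfsg.Agent.H07.CD.ONT
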