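import Mathlib
import Cfsg.Agent.Lib.H07.CD.ONTM
set_option autoImplicit false
set_option maxRecDepth 1000000
namespace Cfsg.Agent.H07.CD.ONT
open Cfsg.Agent.H07.Coset Cfsg.Spor
noncomputable section
theorem c_rel_124 : allR F_rel 9 (124 * 2 ^ 9) = true := by decide +kernel
theorem c_rel_125 : allR F_rel 9 (125 * 2 ^ 9) = true := by decide +kernel
theorem c_rel_126 : allR F_rel 9 (126 * 2 ^ 9) = true := by decide +kernel
theorem c_rel_127 : allR F_rel 9 (127 * 2 ^ 9) = true := by decide +kernel
theorem c_rel_128 : allR F_rel 9 (128 * 2 ^ 9) = true := by decide +kernel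
theorem c_rel_129 : allR F_rel 9 (129 * 2 ^ 9) = true := by decide +kernel
theorem c_rel_130 : allR F_rel 9 (130 * 2 ^ 9) = true := by decide +kernel
theorem c_rel_131 : allR F_rel 9 (131 * 2 ^ 9) = true := by decide +kernel
theorem c_rel_132 : allR F_rel 9 (132 * 2 ^ 9) = true := by decide +kernel
theorem c_rel_133 : allR F_rel 9 (133 * 2 ^ 9) = true := by decide +kernel
theorem c_rel_134 : allR F_rel 9 (134 * 2 ^ 9) = true := by decide +kernel
theorem c_rel_135 : allR F_rel 9 (135 * 2 ^ 9) = true := by decide +kernel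

end

end Cfsg.Agent.H07.CD.ONT
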