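import Mathlib
import Cfsg.Agent.Lib.H07.CD.ONTM
set_option autoImplicit false
set_option maxRecDepth 1000000
namespace Cfsg.Agent.H07.CD.ONT
open Cfsg.Agent.H07.Coset Cfsg.Spor
noncomputable section
theorem c_rel_136 : allR F_rel 9 (136 * 2 ^ 9) = true := by decide +kernel
theorem c_rel_137 : allR F_rel 9 (137 * 2 ^ 9) = true := by decide +kernel
theorem c_rel_138 : allR F_rel 9 (138 * 2 ^ 9) = true := by decide +kernel
theorem c_rel_139 : allR F_rel 9 (139 * 2 ^ 9) = true := by decide +kernel
theorem c_rel_140 : allR F_rel 9 (140 * 2 ^ 9) = true := by decide +kernel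
theorem c_rel_141 : allR F_rel 9 (141 * 2 ^ 9) = true := by decide +kernel
theorem c_rel_142 : allR F_rel 9 (142 * 2 ^ 9) = true := by decide +kernel
theorem c_rel_143 : allR F_rel 9 (143 * 2 ^ 9) = true := by decide +kernel
theorem c_rel_144 : allR F_rel 9 (144 * 2 ^ 9) = true := by decide +kernel
theorem c_rel_145 : allR F_rel 9 (145 * 2 ^ 9) = true := by decide +kernel
theorem c_rel_146 : allR F_rel 9 (146 * 2 ^ 9) = true := by decide +kernel
theorem c_rel_147 : allR F_rel 9 (147 * 2 ^ 9) = true := by decide +kernel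

end

end Cfsg.Agent.H07.CD.ONT
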