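import Mathlib
import Cfsg.Agent.Lib.H07.CD.ONTM
set_option autoImplicit false
set_option maxRecDepth 1000000
namespace Cfsg.Agent.H07.CD.ONT
open Cfsg.Agent.H07.Coset Cfsg.Spor
noncomputable section
theorem c_rel_148 : allR F_rel 9 (148 * 2 ^ 9) = true := by decide +kernel
theorem c_rel_149 : allR F_rel 9 (149 * 2 ^ 9) = true := by decide +kernel
theorem c_rel_150 : allR F_rel 9 (150 * 2 ^ 9) = true := by decide +kernel
theorem c_rel_151 : allR F_rel 9 (151 * 2 ^ 9) = true := by decide +kernel
theorem c_rel_152 : allR F_rel 9 (152 * 2 ^ 9) = true := by decide +kernel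
theorem c_rel_153 : allR F_rel 9 (153 * 2 ^ 9) = true := by decide +kernel
theorem c_rel_154 : allR F_rel 9 (154 * 2 ^ 9) = true := by decide +kernel
theorem c_rel_155 : allR F_rel 9 (155 * 2 ^ 9) = true := by decide +kernel
theorem c_rel_156 : allR F_rel 9 (156 * 2 ^ 9) = true := by decide +kernel
theorem c_rel_157 : allR F_rel 9 (157 * 2 ^ 9) = true := by decide +kernel
theorem c_rel_158 : allR F_rel 9 (158 * 2 ^ 9) = true := by decide +kernel
theorem c_rel_159 : allR F_rel 9 (159 * 2 ^ 9) = true := by decide +kernel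

end

end Cfsg.Agent.H07.CD.ONT
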