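import Mathlib
import Cfsg.Agent.Lib.H07.CD.ONTM
set_option autoImplicit false
set_option maxRecDepth 1000000
namespace Cfsg.Agent.H07.CD.ONT
open Cfsg.Agent.H07.Coset Cfsg.Spor
noncomputable section
theorem c_rel_160 : allR F_rel 9 (160 * 2 ^ 9) = true := by decide +kernel
theorem c_rel_161 : allR F_rel 9 (161 * 2 ^ 9) = true := by decide +kernel
theorem c_rel_162 : allR F_rel 9 (162 * 2 ^ 9) = true := by decide +kernel
theorem c_rel_163 : allR F_rel 9 (163 * 2 ^ 9) = true := by decide +kernel
theorem c_rel_164 : allR F_rel 9 (164 * 2 ^ 9) = true := by decide +kernel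
theorem c_rel_165 : allR F_rel 9 (165 * 2 ^ 9) = true := by decide +kernel
theorem c_rel_166 : allR F_rel 9 (166 * 2 ^ 9) = true := by decide +kernel
theorem c_rel_167 : allR F_rel 9 (167 * 2 ^ 9) = true := by decide +kernel
theorem c_rel_168 : allR F_rel 9 (168 * 2 ^ 9) = true := by decide +kernel
theorem c_rel_169 : allR F_rel 9 (169 * 2 ^ 9) = true := by decide +kernel
theorem c_rel_170 : allR F_rel 9 (170 * 2 ^ 9) = true := by decide +kernel
theorem c_rel_171 : allR F_rel 9 (171 * 2 ^ 9) = true := by decide +kernel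

end

end Cfsg.Agent.H07.CD.ONT
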