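import Mathlib
import Cfsg.Agent.Lib.H07.CD.ONTM
set_option autoImplicit false
set_option maxRecDepth 1000000
namespace Cfsg.Agent.H07.CD.ONT
open Cfsg.Agent.H07.Coset Cfsg.Spor
noncomputable section
theorem c_rel_184 : allR F_rel 9 (184 * 2 ^ 9) = true := by decide +kernel
theorem c_rel_185 : allR F_rel 9 (185 * 2 ^ 9) = true := by decide +kernel
theorem c_rel_186 : allR F_rel 9 (186 * 2 ^ 9) = true := by decide +kernel
theorem c_rel_187 : allR F_rel 9 (187 * 2 ^ 9) = true := by decide +kernel
theorem c_rel_188 : allR F_rel 9 (188 * 2 ^ 9) = true := by decide +kernel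
theorem c_rel_189 : allR F_rel 9 (189 * 2 ^ 9) = true := by decide +kernel
theorem c_rel_190 : allR F_rel 9 (190 * 2 ^ 9) = true := by decide +kernel
theorem c_rel_191 : allR F_rel 9 (191 * 2 ^ 9) = true := by decide +kernel
theorem c_rel_192 : allR F_rel 9 (192 * 2 ^ 9) = true := by decide +kernel
theorem c_rel_193 : allR F_rel 9 (193 * 2 ^ 9) = true := by decide +kernel
theorem c_rel_194 : allR F_rel 9 (194 * 2 ^ 9) = true := by decide +kernel
theorem c_rel_195 : allR F_rel 9 (195 * 2 ^ 9) = true := by decide +kernel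

end

end Cfsg.Agent.H07.CD.ONT
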