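import Mathlib
import Cfsg.Agent.Lib.H07.CD.ONTM
set_option autoImplicit false
set_option maxRecDepth 1000000
namespace Cfsg.Agent.H07.CD.ONT
open Cfsg.Agent.H07.Coset Cfsg.Spor
noncomputable section
theorem c_rel_196 : allR F_rel 9 (196 * 2 ^ 9) = true := by decide +kernel
theorem c_rel_197 : allR F_rel 9 (197 * 2 ^ 9) = true := by decide +kernel
theorem c_rel_198 : allR F_rel 9 (198 * 2 ^ 9) = true := by decide +kernel
theorem c_rel_199 : allR F_rel 9 (199 * 2 ^ 9) = true := by decide +kernel
theorem c_rel_200 : allR F_rel 9 (200 * 2 ^ 9) = true := by decide +kernel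
theorem c_rel_201 : allR F_rel 9 (201 * 2 ^ 9) = true := by decide +kernel
theorem c_rel_202 : allR F_rel 9 (202 * 2 ^ 9) = true := by decide +kernel
theorem c_rel_203 : allR F_rel 9 (203 * 2 ^ 9) = true := by decide +kernel
theorem c_rel_204 : allR F_rel 9 (204 * 2 ^ 9) = true := by decide +kernel
theorem c_rel_205 : allR F_rel 9 (205 * 2 ^ 9) = true := by decide +kernel
theorem c_rel_206 : allR F_rel 9 (206 * 2 ^ 9) = true := by decide +kernel
theorem c_rel_207 : allR F_rel 9 (207 * 2 ^ 9) = true := by decide +kernel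

end

end Cfsg.Agent.H07.CD.ONT
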