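import Mathlib
import Cfsg.Agent.Lib.H07.CD.ONTM
set_option autoImplicit false
set_option maxRecDepth 1000000
namespace Cfsg.Agent.H07.CD.ONT
open Cfsg.Agent.H07.Coset Cfsg.Spor
noncomputable section
theorem c_rel_208 : allR F_rel 9 (208 * 2 ^ 9) = true := by decide +kernel
theorem c_rel_209 : allR F_rel 9 (209 * 2 ^ 9) = true := by decide +kernel
theorem c_rel_210 : allR F_rel 9 (210 * 2 ^ 9) = true := by decide +kernel
theorem c_rel_211 : allR F_rel 9 (211 * 2 ^ 9) = true := by decide +kernel
theorem c_rel_212 : allR F_rel 9 (212 * 2 ^ 9) = true := by decide +kernel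
theorem c_rel_213 : allR F_rel 9 (213 * 2 ^ 9) = true := by decide +kernel
theorem c_rel_214 : allR F_rel 9 (214 * 2 ^ 9) = true := by decide +kernel
theorem c_rel_215 : allR F_rel 9 (215 * 2 ^ 9) = true := by decide +kernel
theorem c_rel_216 : allR F_rel 9 (216 * 2 ^ 9) = true := by decide +kernel
theorem c_rel_217 : allR F_rel 9 (217 * 2 ^ 9) = true := by decide +kernel
theorem c_rel_218 : allR F_rel 9 (218 * 2 ^ 9) = true := by decide +kernel
theorem c_rel_219 : allR F_rel 9 (219 * 2 ^ 9) = true := by decide +kernel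

end

end Cfsg.Agent.H07.CD.ONT
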