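import Mathlib
import Cfsg.Agent.Lib.H07.CD.ONTM
set_option autoImplicit false
set_option maxRecDepth 1000000
namespace Cfsg.Agent.H07.CD.ONT
open Cfsg.Agent.H07.Coset Cfsg.Spor
noncomputable section
theorem c_rel_220 : allR F_rel 9 (220 * 2 ^ 9) = true := by decide +kernel
theorem c_rel_221 : allR F_rel 9 (221 * 2 ^ 9) = true := by decide +kernel
theorem c_rel_222 : allR F_rel 9 (222 * 2 ^ 9) = true := by decide +kernel
theorem c_rel_223 : allR F_rel 9 (223 * 2 ^ 9) = true := by decide +kernel
theorem c_rel_224 : allR F_rel 9 (224 * 2 ^ 9) = true := by decide +kernel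
theorem c_rel_225 : allR F_rel 9 (225 * 2 ^ 9) = true := by decide +kernel
theorem c_rel_226 : allR F_rel 9 (226 * 2 ^ 9) = true := by decide +kernel
theorem c_rel_227 : allR F_rel 9 (227 * 2 ^ 9) = true := by decide +kernel
theorem c_rel_228 : allR F_rel 9 (228 * 2 ^ 9) = true := by decide +kernel
theorem c_rel_229 : allR F_rel 9 (229 * 2 ^ 9) = true := by decide +kernel
theorem c_rel_230 : allR F_rel 9 (230 * 2 ^ 9) = true := by decide +kernel
theorem c_rel_231 : allR F_rel 9 (231 * 2 ^ 9) = true := by decide +kernel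

end

end Cfsg.Agent.H07.CD.ONT
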