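import Mathlib
import Cfsg.Agent.Lib.H07.CD.ONTM
set_option autoImplicit false
set_option maxRecDepth 1000000
namespace Cfsg.Agent.H07.CD.ONT
open Cfsg.Agent.H07.Coset Cfsg.Spor
noncomputable section
theorem c_rel_232 : allR F_rel 9 (232 * 2 ^ 9) = true := by decide +kernel
theorem c_rel_233 : allR F_rel 9 (233 * 2 ^ 9) = true := by decide +kernel
theorem c_rel_234 : allR F_rel 9 (234 * 2 ^ 9) = true := by decide +kernel
theorem c_rel_235 : allR F_rel 9 (235 * 2 ^ 9) = true := by decide +kernel
theorem c_rel_236 : allR F_rel 9 (236 * 2 ^ 9) = true := by decide +kernel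
theorem c_rel_237 : allR F_rel 9 (237 * 2 ^ 9) = true := by decide +kernel
theorem c_rel_238 : allR F_rel 9 (238 * 2 ^ 9) = true := by decide +kernel
theorem c_rel_239 : allR F_rel 9 (239 * 2 ^ 9) = true := by decide +kernel
theorem c_desc_0 : allR F_desc 13 (0 * 2 ^ 13) = true := by decide +kernel
theorem c_desc_1 : allR F_desc 13 (1 * 2 ^ 13) = true := by decide +kernel
theorem c_desc_2 : allR F_desc 13 (2 * 2 ^ 13) = true := by decide +kernel

end

end Cfsg.Agent.H07.CD.ONT
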