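import Mathlib
import Cfsg.Agent.Lib.H07.CD.ONTM
set_option autoImplicit false
set_option maxRecDepth 1000000
namespace Cfsg.Agent.H07.CD.ONT
open Cfsg.Agent.H07.Coset Cfsg.Spor
noncomputable section
theorem c_step_65 : allR F_step 12 (65 * 2 ^ 12) = true := by decide +kernel
theorem c_step_66 : allR F_step 12 (66 * 2 ^ 12) = true := by decide +kernel
theorem c_step_67 : allR F_step 12 (67 * 2 ^ 12) = true := by decide +kernel
theorem c_step_68 : allR F_step 12 (68 * 2 ^ 12) = true := by decide +kernel
theorem c_step_69 : allR F_step 12 (69 * 2 ^ 12) = true := by decide +kernel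
theorem c_step_70 : allR F_step 12 (70 * 2 ^ 12) = true := by decide +kernel
theorem c_step_71 : allR F_step 12 (71 * 2 ^ 12) = true := by decide +kernel
theorem c_step_72 : allR F_step 12 (72 * 2 ^ 12) = true := by decide +kernel
theorem c_step_73 : allR F_step 12 (73 * 2 ^ 12) = true := by decide +kernel
theorem c_step_74 : allR F_step 12 (74 * 2 ^ 12) = true := by decide +kernel
theorem c_step_75 : allR F_step 12 (75 * 2 ^ 12) = true := by decide +kernel
theorem c_step_76 : allR F_step 12 (76 * 2 ^ 12) = true := by decide +kernel
theorem c_step_77 : allR F_step 12 (77 * 2 ^ 12) = true := by decide +kernel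

end

end Cfsg.Agent.H07.CD.ONT
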