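import Mathlib
import Cfsg.Agent.Lib.H07.CD.ONTM
set_option autoImplicit false
set_option maxRecDepth 1000000
namespace Cfsg.Agent.H07.CD.ONT
open Cfsg.Agent.H07.Coset Cfsg.Spor
noncomputable section
theorem c_orb3_6 : allR F_orb3 14 (6 * 2 ^ 14) = true := by decide +kernel
theorem c_orb3_7 : allR F_orb3 14 (7 * 2 ^ 14) = true := by decide +kernel

end

end Cfsg.Agent.H07.CD.ONT
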