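import Mathlib
import Cfsg.Agent.Lib.H07.CD.ONTM
set_option autoImplicit false
set_option maxRecDepth 1000000
namespace Cfsg.Agent.H07.CD.ONT
open Cfsg.Agent.H07.Coset Cfsg.Spor
noncomputable section
theorem c_step_78 : allR F_step 12 (78 * 2 ^ 12) = true := by decide +kernel
theorem c_step_79 : allR F_step 12 (79 * 2 ^ 12) = true := by decide +kernel
theorem c_step_80 : allR F_step 12 (80 * 2 ^ 12) = true := by decide +kernel
theorem c_step_81 : allR F_step 12 (81 * 2 ^ 12) = true := by decide +kernel
theorem c_step_82 : allR F_step 12 (82 * 2 ^ 12) = true := by decide +kernel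
theorem c_step_83 : allR F_step 12 (83 * 2 ^ 12) = true := by decide +kernel
theorem c_step_84 : allR F_step 12 (84 * 2 ^ 12) = true := by decide +kernel
theorem c_step_85 : allR F_step 12 (85 * 2 ^ 12) = true := by decide +kernel
theorem c_step_86 : allR F_step 12 (86 * 2 ^ 12) = true := by decide +kernel
theorem c_step_87 : allR F_step 12 (87 * 2 ^ 12) = true := by decide +kernel
theorem c_step_88 : allR F_step 12 (88 * 2 ^ 12) = true := by decide +kernel
theorem c_step_89 : allR F_step 12 (89 * 2 ^ 12) = true := by decide +kernel
theorem c_step_90 : allR F_step 12 (90 * 2 ^ 12) = true := by decide +kernel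

end

end Cfsg.Agent.H07.CD.ONT
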