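import Mathlib
import Cfsg.Agent.Lib.H07.CD.ONTM
set_option autoImplicit false
set_option maxRecDepth 1000000
namespace Cfsg.Agent.H07.CD.ONT
open Cfsg.Agent.H07.Coset Cfsg.Spor
noncomputable section
theorem c_step_91 : allR F_step 12 (91 * 2 ^ 12) = true := by decide +kernel
theorem c_step_92 : allR F_step 12 (92 * 2 ^ 12) = true := by decide +kernel
theorem c_step_93 : allR F_step 12 (93 * 2 ^ 12) = true := by decide +kernel
theorem c_step_94 : allR F_step 12 (94 * 2 ^ 12) = true := by decide +kernel
theorem c_step_95 : allR F_step 12 (95 * 2 ^ 12) = true := by decide +kernel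
theorem c_step_96 : allR F_step 12 (96 * 2 ^ 12) = true := by decide +kernel
theorem c_step_97 : allR F_step 12 (97 * 2 ^ 12) = true := by decide +kernel
theorem c_step_98 : allR F_step 12 (98 * 2 ^ 12) = true := by decide +kernel
theorem c_step_99 : allR F_step 12 (99 * 2 ^ 12) = true := by decide +kernel
theorem c_step_100 : allR F_step 12 (100 * 2 ^ 12) = true := by decide +kernel
theorem c_step_101 : allR F_step 12 (101 * 2 ^ 12) = true := by decide +kernel
theorem c_step_102 : allR F_step 12 (102 * 2 ^ 12) = true := by decide +kernel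
theorem c_step_103 : allR F_step 12 (103 * 2 ^ 12) = true := by decide +kernel

end

end Cfsg.Agent.H07.CD.ONT
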