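import Mathlib
import Cfsg.Agent.Lib.H07.CD.ONTM
set_option autoImplicit false
set_option maxRecDepth 1000000
namespace Cfsg.Agent.H07.CD.ONT
open Cfsg.Agent.H07.Coset Cfsg.Spor
noncomputable section
theorem c_step_104 : allR F_step 12 (104 * 2 ^ 12) = true := by decide +kernel
theorem c_step_105 : allR F_step 12 (105 * 2 ^ 12) = true := by decide +kernel
theorem c_step_106 : allR F_step 12 (106 * 2 ^ 12) = true := by decide +kernel
theorem c_step_107 : allR F_step 12 (107 * 2 ^ 12) = true := by decide +kernel
theorem c_step_108 : allR F_step 12 (108 * 2 ^ 12) = true := by decide +kernel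
theorem c_step_109 : allR F_step 12 (109 * 2 ^ 12) = true := by decide +kernel
theorem c_step_110 : allR F_step 12 (110 * 2 ^ 12) = true := by decide +kernel
theorem c_step_111 : allR F_step 12 (111 * 2 ^ 12) = true := by decide +kernel
theorem c_step_112 : allR F_step 12 (112 * 2 ^ 12) = true := by decide +kernel
theorem c_step_113 : allR F_step 12 (113 * 2 ^ 12) = true := by decide +kernel
theorem c_step_114 : allR F_step 12 (114 * 2 ^ 12) = true := by decide +kernel
theorem c_step_115 : allR F_step 12 (115 * 2 ^ 12) = true := by decide +kernel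
theorem c_step_116 : allR F_step 12 (116 * 2 ^ 12) = true := by decide +kernel

end

end Cfsg.Agent.H07.CD.ONT
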