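import Mathlib
import Cfsg.Agent.Lib.H07.CD.ONTM
set_option autoImplicit false
set_option maxRecDepth 1000000
namespace Cfsg.Agent.H07.CD.ONT
open Cfsg.Agent.H07.Coset Cfsg.Spor
noncomputable section
theorem c_step_117 : allR F_step 12 (117 * 2 ^ 12) = true := by decide +kernel
theorem c_step_118 : allR F_step 12 (118 * 2 ^ 12) = true := by decide +kernel
theorem c_step_119 : allR F_step 12 (119 * 2 ^ 12) = true := by decide +kernel
theorem c_step_120 : allR F_step 12 (120 * 2 ^ 12) = true := by decide +kernel
theorem c_step_121 : allR F_step 12 (121 * 2 ^ 12) = true := by decide +kernel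
theorem c_step_122 : allR F_step 12 (122 * 2 ^ 12) = true := by decide +kernel
theorem c_step_123 : allR F_step 12 (123 * 2 ^ 12) = true := by decide +kernel
theorem c_step_124 : allR F_step 12 (124 * 2 ^ 12) = true := by decide +kernel
theorem c_step_125 : allR F_step 12 (125 * 2 ^ 12) = true := by decide +kernel
theorem c_step_126 : allR F_step 12 (126 * 2 ^ 12) = true := by decide +kernel
theorem c_step_127 : allR F_step 12 (127 * 2 ^ 12) = true := by decide +kernel
theorem c_step_128 : allR F_step 12 (128 * 2 ^ 12) = true := by decide +kernel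
theorem c_step_129 : allR F_step 12 (129 * 2 ^ 12) = true := by decide +kernel

end

end Cfsg.Agent.H07.CD.ONT
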