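import Mathlib
import Cfsg.Agent.Lib.H07.CD.ONTM
import Cfsg.Agent.Lib.H07.CD.ONTC0
import Cfsg.Agent.Lib.H07.CD.ONTC1
import Cfsg.Agent.Lib.H07.CD.ONTC2
import Cfsg.Agent.Lib.H07.CD.ONTC3
import Cfsg.Agent.Lib.H07.CD.ONTC4
import Cfsg.Agent.Lib.H07.CD.ONTC5
import Cfsg.Agent.Lib.H07.CD.ONTC6
import Cfsg.Agent.Lib.H07.CD.ONTC7
import Cfsg.Agent.Lib.H07.CD.ONTC8
import Cfsg.Agent.Lib.H07.CD.ONTC9
import Cfsg.Agent.Lib.H07.CD.ONTC10
import Cfsg.Agent.Lib.H07.CD.ONTC11
import Cfsg.Agent.Lib.H07.CD.ONTC12
import Cfsg.Agent.Lib.H07.CD.ONTC13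
import Cfsg.Agent.Lib.H07.CD.ONTC14
import Cfsg.Agent.Lib.H07.CD.ONTC15
import Cfsg.Agent.Lib.H07.CD.ONTC16
import Cfsg.Agent.Lib.H07.CD.ONTC17
import Cfsg.Agent.Lib.H07.CD.ONTC18
import Cfsg.Agent.Lib.H07.CD.ONTC19
import Cfsg.Agent.Lib.H07.CD.ONTC20
import Cfsg.Agent.Lib.H07.CD.ONTC21
import Cfsg.Agent.Lib.H07.CD.ONTC22
import Cfsg.Agent.Lib.H07.CD.ONTC23
import Cfsg.Agent.Lib.H07.CD.ONTC24
import Cfsg.Agent.Lib.H07.CD.ONTC25
import Cfsg.Agent.Lib.H07.CD.ONTC26
import Cfsg.Agent.Lib.H07.CD.ONTC27
import Cfsg.Agent.Lib.H07.CD.ONTC28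
import Cfsg.Agent.Lib.H07.CD.ONTC29
import Cfsg.Agent.Lib.H07.CD.ONTC30
import Cfsg.Agent.Lib.H07.CD.ONTC31
import Cfsg.Agent.Lib.H07.CD.ONTC32
import Cfsg.Agent.Lib.H07.CD.ONTC33
import Cfsg.Agent.Lib.H07.CD.ONTC34
import Cfsg.Agent.Lib.H07.CD.ONTC35
import Cfsg.Agent.Lib.H07.CD.ONTC36
import Cfsg.Agent.Lib.H07.CD.ONTC37
import Cfsg.Agent.Lib.H07.CD.ONTC38
import Cfsg.Agent.Lib.H07.CD.ONTC39
import Cfsg.Agent.Lib.H07.CD.ONTC40
import Cfsg.Agent.Lib.H07.CD.ONTC41
import Cfsg.Agent.Lib.H07.CD.ONTC42
import Cfsg.Agent.Lib.H07.CD.ONTC43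
import Cfsg.Agent.Lib.H07.CD.ONTC44
import Cfsg.Agent.Lib.H07.CD.ONTC45
import Cfsg.Agent.Lib.H07.CD.ONTC46
import Cfsg.Agent.Lib.H07.CD.ONTC47
import Cfsg.Agent.Lib.H07.CD.ONTC48
import Cfsg.Agent.Lib.H07.CD.ONTC49
import Cfsg.Agent.Lib.H07.CD.ONTC50
import Cfsg.Agent.Lib.H07.CD.ONTC51
import Cfsg.Agent.Lib.H07.CD.ONTC52
import Cfsg.Agent.Lib.H07.CD.ONTC53
import Cfsg.Agent.Lib.H07.CD.ONTC54
set_option autoImplicit false
set_option maxRecDepth 1000000
namespace Cfsg.Agent.H07.CD.ONT
open Cfsg.Agent.H07.Coset Cfsg.Spor
noncomputable section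
theorem hs_step : ∀ i, i < cM → (stepOK cell eps stp defs wordT.get ncol hlet) i = true :=
  guard_specM (d := 12) (m := 308) (by decide) (by
  intro j hj
  interval_cases j
  · exact c_step_0
  · exact c_step_1
  · exact c_step_2
  · exact c_step_3
  · exact c_step_4
  · exact c_step_5
  · exact c_step_6
  · exact c_step_7
  · exact c_step_8
  · exact c_step_9
  · exact c_step_10
  · exact c_step_11
  · exact c_step_12
  · exact c_step_13
  · exact c_step_14
  · exact c_step_15
  · exact c_step_16
  · exact c_step_17
  · exact c_step_18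
  · exact c_step_19
  · exact c_step_20
  · exact c_step_21
  · exact c_step_22
  · exact c_step_23
  · exact c_step_24
  · exact c_step_25
  · exact c_step_26
  · exact c_step_27
  · exact c_step_28
  · exact c_step_29
  · exact c_step_30
  · exact c_step_31
  · exact c_step_32
  · exact c_step_33
  · exact c_step_34
  · exact c_step_35
  · exact c_step_36
  · exact c_step_37
  · exact c_step_38
  · exact c_step_39
  · exact c_step_40
  · exact c_step_41
  · exact c_step_42
  · exact c_step_43
  · exact c_step_44
  · exact c_step_45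
  · exact c_step_46
  · exact c_step_47
  · exact c_step_48
  · exact c_step_49
  · exact c_step_50
  · exact c_step_51
  · exact c_step_52
  · exact c_step_53
  · exact c_step_54
  · exact c_step_55
  · exact c_step_56
  · exact c_step_57
  · exact c_step_58
  · exact c_step_59
  · exact c_step_60
  · exact c_step_61
  · exact c_step_62
  · exact c_step_63
  · exact c_step_64
  · exact c_step_65
  · exact c_step_66
  · exact c_step_67
  · exact c_step_68
  · exact c_step_69
  · exact c_step_70
  · exact c_step_71
  · exact c_step_72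
  · exact c_step_73
  · exact c_step_74
  · exact c_step_75
  · exact c_step_76
  · exact c_step_77
  · exact c_step_78
  · exact c_step_79
  · exact c_step_80
  · exact c_step_81
  · exact c_step_82
  · exact c_step_83
  · exact c_step_84
  · exact c_step_85
  · exact c_step_86
  · exact c_step_87
  · exact c_step_88
  · exact c_step_89
  · exact c_step_90
  · exact c_step_91
  · exact c_step_92
  · exact c_step_93
  · exact c_step_94
  · exact c_step_95
  · exact c_step_96
  · exact c_step_97
  · exact c_step_98
  · exact c_step_99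
  · exact c_step_100
  · exact c_step_101
  · exact c_step_102
  · exact c_step_103
  · exact c_step_104
  · exact c_step_105
  · exact c_step_106
  · exact c_step_107
  · exact c_step_108
  · exact c_step_109
  · exact c_step_110
  · exact c_step_111
  · exact c_step_112
  · exact c_step_113
  · exact c_step_114
  · exact c_step_115
  · exact c_step_116
  · exact c_step_117
  · exact c_step_118
  · exact c_step_119
  · exact c_step_120
  · exact c_step_121
  · exact c_step_122
  · exact c_step_123
  · exact c_step_124
  · exact c_step_125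
  · exact c_step_126
  · exact c_step_127
  · exact c_step_128
  · exact c_step_129
  · exact c_step_130
  · exact c_step_131
  · exact c_step_132
  · exact c_step_133
  · exact c_step_134
  · exact c_step_135
  · exact c_step_136
  · exact c_step_137
  · exact c_step_138
  · exact c_step_139
  · exact c_step_140
  · exact c_step_141
  · exact c_step_142
  · exact c_step_143
  · exact c_step_144
  · exact c_step_145
  · exact c_step_146
  · exact c_step_147
  · exact c_step_148
  · exact c_step_149
  · exact c_step_150
  · exact c_step_151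
  · exact c_step_152
  · exact c_step_153
  · exact c_step_154
  · exact c_step_155
  · exact c_step_156
  · exact c_step_157
  · exact c_step_158
  · exact c_step_159
  · exact c_step_160
  · exact c_step_161
  · exact c_step_162
  · exact c_step_163
  · exact c_step_164
  · exact c_step_165
  · exact c_step_166
  · exact c_step_167
  · exact c_step_168
  · exact c_step_169
  · exact c_step_170
  · exact c_step_171
  · exact c_step_172
  · exact c_step_173
  · exact c_step_174
  · exact c_step_175
  · exact c_step_176
  · exact c_step_177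
  · exact c_step_178
  · exact c_step_179
  · exact c_step_180
  · exact c_step_181
  · exact c_step_182
  · exact c_step_183
  · exact c_step_184
  · exact c_step_185
  · exact c_step_186
  · exact c_step_187
  · exact c_step_188
  · exact c_step_189
  · exact c_step_190
  · exact c_step_191
  · exact c_step_192
  · exact c_step_193
  · exact c_step_194
  · exact c_step_195
  · exact c_step_196
  · exact c_step_197
  · exact c_step_198
  · exact c_step_199
  · exact c_step_200
  · exact c_step_201
  · exact c_step_202
  · exact c_step_203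
  · exact c_step_204
  · exact c_step_205
  · exact c_step_206
  · exact c_step_207
  · exact c_step_208
  · exact c_step_209
  · exact c_step_210
  · exact c_step_211
  · exact c_step_212
  · exact c_step_213
  · exact c_step_214
  · exact c_step_215
  · exact c_step_216
  · exact c_step_217
  · exact c_step_218
  · exact c_step_219
  · exact c_step_220
  · exact c_step_221
  · exact c_step_222
  · exact c_step_223
  · exact c_step_224
  · exact c_step_225
  · exact c_step_226
  · exact c_step_227
  · exact c_step_228
  · exact c_step_229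
  · exact c_step_230
  · exact c_step_231
  · exact c_step_232
  · exact c_step_233
  · exact c_step_234
  · exact c_step_235
  · exact c_step_236
  · exact c_step_237
  · exact c_step_238
  · exact c_step_239
  · exact c_step_240
  · exact c_step_241
  · exact c_step_242
  · exact c_step_243
  · exact c_step_244
  · exact c_step_245
  · exact c_step_246
  · exact c_step_247
  · exact c_step_248
  · exact c_step_249
  · exact c_step_250
  · exact c_step_251
  · exact c_step_252
  · exact c_step_253
  · exact c_step_254
  · exact c_step_255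
  · exact c_step_256
  · exact c_step_257
  · exact c_step_258
  · exact c_step_259
  · exact c_step_260
  · exact c_step_261
  · exact c_step_262
  · exact c_step_263
  · exact c_step_264
  · exact c_step_265
  · exact c_step_266
  · exact c_step_267
  · exact c_step_268
  · exact c_step_269
  · exact c_step_270
  · exact c_step_271
  · exact c_step_272
  · exact c_step_273
  · exact c_step_274
  · exact c_step_275
  · exact c_step_276
  · exact c_step_277
  · exact c_step_278
  · exact c_step_279
  · exact c_step_280
  · exact c_step_281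
  · exact c_step_282
  · exact c_step_283
  · exact c_step_284
  · exact c_step_285
  · exact c_step_286
  · exact c_step_287
  · exact c_step_288
  · exact c_step_289
  · exact c_step_290
  · exact c_step_291
  · exact c_step_292
  · exact c_step_293
  · exact c_step_294
  · exact c_step_295
  · exact c_step_296
  · exact c_step_297
  · exact c_step_298
  · exact c_step_299
  · exact c_step_300
  · exact c_step_301
  · exact c_step_302
  · exact c_step_303
  · exact c_step_304
  · exact c_step_305
  · exact c_step_306
  · exact c_step_307)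

theorem hs_cell : ∀ i, i < cN → (fun g => (List.range ncol).all (fun y => consCell cell stp cM g y)) i = true :=
  guard_specM (d := 15) (m := 6) (by decide) (by
  intro j hj
  interval_cases j
  · exact c_cell_0
  · exact c_cell_1
  · exact c_cell_2
  · exact c_cell_3
  · exact c_cell_4
  · exact c_cell_5)

theorem hs_eps : ∀ i, i < cN → (consEps eps stp cM) i = true :=
  guard_specM (d := 15) (m := 6) (by decide) (by
  intro j hj
  interval_cases j
  · exact c_eps_0
  · exact c_eps_1
  · exact c_eps_2
  · exact c_eps_3
  · exact c_eps_4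
  · exact c_eps_5)

theorem hs_fin : ∀ i, i < cn → (finOK cell eps live T cM cn ncol) i = true :=
  guard_specM (d := 12) (m := 30) (by decide) (by
  intro j hj
  interval_cases j
  · exact c_fin_0
  · exact c_fin_1
  · exact c_fin_2
  · exact c_fin_3
  · exact c_fin_4
  · exact c_fin_5
  · exact c_fin_6
  · exact c_fin_7
  · exact c_fin_8
  · exact c_fin_9
  · exact c_fin_10
  · exact c_fin_11
  · exact c_fin_12
  · exact c_fin_13
  · exact c_fin_14
  · exact c_fin_15
  · exact c_fin_16
  · exact c_fin_17
  · exact c_fin_18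
  · exact c_fin_19
  · exact c_fin_20
  · exact c_fin_21
  · exact c_fin_22
  · exact c_fin_23
  · exact c_fin_24
  · exact c_fin_25
  · exact c_fin_26
  · exact c_fin_27
  · exact c_fin_28
  · exact c_fin_29)

theorem hs_rel : ∀ i, i < cn → (relOK T chkW) i = true :=
  guard_specM (d := 9) (m := 240) (by decide) (by
  intro j hj
  interval_cases j
  · exact c_rel_0
  · exact c_rel_1
  · exact c_rel_2
  · exact c_rel_3
  · exact c_rel_4
  · exact c_rel_5
  · exact c_rel_6
  · exact c_rel_7
  · exact c_rel_8
  · exact c_rel_9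
  · exact c_rel_10
  · exact c_rel_11
  · exact c_rel_12
  · exact c_rel_13
  · exact c_rel_14
  · exact c_rel_15
  · exact c_rel_16
  · exact c_rel_17
  · exact c_rel_18
  · exact c_rel_19
  · exact c_rel_20
  · exact c_rel_21
  · exact c_rel_22
  · exact c_rel_23
  · exact c_rel_24
  · exact c_rel_25
  · exact c_rel_26
  · exact c_rel_27
  · exact c_rel_28
  · exact c_rel_29
  · exact c_rel_30
  · exact c_rel_31
  · exact c_rel_32
  · exact c_rel_33
  · exact c_rel_34
  · exact c_rel_35
  · exact c_rel_36
  · exact c_rel_37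
  · exact c_rel_38
  · exact c_rel_39
  · exact c_rel_40
  · exact c_rel_41
  · exact c_rel_42
  · exact c_rel_43
  · exact c_rel_44
  · exact c_rel_45
  · exact c_rel_46
  · exact c_rel_47
  · exact c_rel_48
  · exact c_rel_49
  · exact c_rel_50
  · exact c_rel_51
  · exact c_rel_52
  · exact c_rel_53
  · exact c_rel_54
  · exact c_rel_55
  · exact c_rel_56
  · exact c_rel_57
  · exact c_rel_58
  · exact c_rel_59
  · exact c_rel_60
  · exact c_rel_61
  · exact c_rel_62
  · exact c_rel_63
  · exact c_rel_64
  · exact c_rel_65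
  · exact c_rel_66
  · exact c_rel_67
  · exact c_rel_68
  · exact c_rel_69
  · exact c_rel_70
  · exact c_rel_71
  · exact c_rel_72
  · exact c_rel_73
  · exact c_rel_74
  · exact c_rel_75
  · exact c_rel_76
  · exact c_rel_77
  · exact c_rel_78
  · exact c_rel_79
  · exact c_rel_80
  · exact c_rel_81
  · exact c_rel_82
  · exact c_rel_83
  · exact c_rel_84
  · exact c_rel_85
  · exact c_rel_86
  · exact c_rel_87
  · exact c_rel_88
  · exact c_rel_89
  · exact c_rel_90
  · exact c_rel_91
  · exact c_rel_92
  · exact c_rel_93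
  · exact c_rel_94
  · exact c_rel_95
  · exact c_rel_96
  · exact c_rel_97
  · exact c_rel_98
  · exact c_rel_99
  · exact c_rel_100
  · exact c_rel_101
  · exact c_rel_102
  · exact c_rel_103
  · exact c_rel_104
  · exact c_rel_105
  · exact c_rel_106
  · exact c_rel_107
  · exact c_rel_108
  · exact c_rel_109
  · exact c_rel_110
  · exact c_rel_111
  · exact c_rel_112
  · exact c_rel_113
  · exact c_rel_114
  · exact c_rel_115
  · exact c_rel_116
  · exact c_rel_117
  · exact c_rel_118
  · exact c_rel_119
  · exact c_rel_120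
  · exact c_rel_121
  · exact c_rel_122
  · exact c_rel_123
  · exact c_rel_124
  · exact c_rel_125
  · exact c_rel_126
  · exact c_rel_127
  · exact c_rel_128
  · exact c_rel_129
  · exact c_rel_130
  · exact c_rel_131
  · exact c_rel_132
  · exact c_rel_133
  · exact c_rel_134
  · exact c_rel_135
  · exact c_rel_136
  · exact c_rel_137
  · exact c_rel_138
  · exact c_rel_139
  · exact c_rel_140
  · exact c_rel_141
  · exact c_rel_142
  · exact c_rel_143
  · exact c_rel_144
  · exact c_rel_145
  · exact c_rel_146
  · exact c_rel_147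
  · exact c_rel_148
  · exact c_rel_149
  · exact c_rel_150
  · exact c_rel_151
  · exact c_rel_152
  · exact c_rel_153
  · exact c_rel_154
  · exact c_rel_155
  · exact c_rel_156
  · exact c_rel_157
  · exact c_rel_158
  · exact c_rel_159
  · exact c_rel_160
  · exact c_rel_161
  · exact c_rel_162
  · exact c_rel_163
  · exact c_rel_164
  · exact c_rel_165
  · exact c_rel_166
  · exact c_rel_167
  · exact c_rel_168
  · exact c_rel_169
  · exact c_rel_170
  · exact c_rel_171
  · exact c_rel_172
  · exact c_rel_173
  · exact c_rel_174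
  · exact c_rel_175
  · exact c_rel_176
  · exact c_rel_177
  · exact c_rel_178
  · exact c_rel_179
  · exact c_rel_180
  · exact c_rel_181
  · exact c_rel_182
  · exact c_rel_183
  · exact c_rel_184
  · exact c_rel_185
  · exact c_rel_186
  · exact c_rel_187
  · exact c_rel_188
  · exact c_rel_189
  · exact c_rel_190
  · exact c_rel_191
  · exact c_rel_192
  · exact c_rel_193
  · exact c_rel_194
  · exact c_rel_195
  · exact c_rel_196
  · exact c_rel_197
  · exact c_rel_198
  · exact c_rel_199
  · exact c_rel_200
  · exact c_rel_201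
  · exact c_rel_202
  · exact c_rel_203
  · exact c_rel_204
  · exact c_rel_205
  · exact c_rel_206
  · exact c_rel_207
  · exact c_rel_208
  · exact c_rel_209
  · exact c_rel_210
  · exact c_rel_211
  · exact c_rel_212
  · exact c_rel_213
  · exact c_rel_214
  · exact c_rel_215
  · exact c_rel_216
  · exact c_rel_217
  · exact c_rel_218
  · exact c_rel_219
  · exact c_rel_220
  · exact c_rel_221
  · exact c_rel_222
  · exact c_rel_223
  · exact c_rel_224
  · exact c_rel_225
  · exact c_rel_226
  · exact c_rel_227
  · exact c_rel_228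
  · exact c_rel_229
  · exact c_rel_230
  · exact c_rel_231
  · exact c_rel_232
  · exact c_rel_233
  · exact c_rel_234
  · exact c_rel_235
  · exact c_rel_236
  · exact c_rel_237
  · exact c_rel_238
  · exact c_rel_239)

theorem hs_desc : ∀ i, i < cn → (descOK T ncol SW) i = true :=
  guard_specM (d := 13) (m := 15) (by decide) (by
  intro j hj
  interval_cases j
  · exact c_desc_0
  · exact c_desc_1
  · exact c_desc_2
  · exact c_desc_3
  · exact c_desc_4
  · exact c_desc_5
  · exact c_desc_6
  · exact c_desc_7
  · exact c_desc_8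
  · exact c_desc_9
  · exact c_desc_10
  · exact c_desc_11
  · exact c_desc_12
  · exact c_desc_13
  · exact c_desc_14)

theorem hs_orb0 : ∀ i, i < cn → (orbOK T SW 1 58654) i = true :=
  guard_specM (d := 14) (m := 8) (by decide) (by
  intro j hj
  interval_cases j
  · exact c_orb0_0
  · exact c_orb0_1
  · exact c_orb0_2
  · exact c_orb0_3
  · exact c_orb0_4
  · exact c_orb0_5
  · exact c_orb0_6
  · exact c_orb0_7)

theorem hs_orb1 : ∀ i, i < cn → (orbOK T SW 58654 110790) i = true :=
  guard_specM (d := 14) (m := 8) (by decide) (by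
  intro j hj
  interval_cases j
  · exact c_orb1_0
  · exact c_orb1_1
  · exact c_orb1_2
  · exact c_orb1_3
  · exact c_orb1_4
  · exact c_orb1_5
  · exact c_orb1_6
  · exact c_orb1_7)

theorem hs_orb2 : ∀ i, i < cn → (orbOK T SW 110790 116376) i = true :=
  guard_specM (d := 14) (m := 8) (by decide) (by
  intro j hj
  interval_cases j
  · exact c_orb2_0
  · exact c_orb2_1
  · exact c_orb2_2
  · exact c_orb2_3
  · exact c_orb2_4
  · exact c_orb2_5
  · exact c_orb2_6
  · exact c_orb2_7)

theorem hs_orb3 : ∀ i, i < cn → (orbOK T SW 116376 122760) i = true :=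
  guard_specM (d := 14) (m := 8) (by decide) (by
  intro j hj
  interval_cases j
  · exact c_orb3_0
  · exact c_orb3_1
  · exact c_orb3_2
  · exact c_orb3_3
  · exact c_orb3_4
  · exact c_orb3_5
  · exact c_orb3_6
  · exact c_orb3_7)


theorem hcol : ∀ (x : ON.Gen) (c : Bool), col x c < ncol := by
  intro x c; cases x <;> cases c <;> decide
theorem hletter : ∀ y, y < ncol → col (letter y).1 (letter y).2 = y := by
  intro y hy
  have h := c_letter
  rw [List.all_eq_true] at h
  exact Nat.eq_of_beq_eq_true (h y (List.mem_range.mpr hy))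
theorem hybar : ∀ (x : ON.Gen) (c : Bool), ybar (col x c) = col x (!c) := by
  intro x c; cases x <;> cases c <;> rfl
theorem hlet1 : ∀ x : ON.Gen, letter (col x true) = (x, true) := by
  intro x; cases x <;> rfl
theorem hlet2 : ∀ x : ON.Gen, col x false = col x true ∨ letter (col x false) = (x, false) := by
  intro x; cases x <;> first | exact Or.inl rfl | exact Or.inr rfl
theorem hinvol : ∀ x : ON.Gen, col x false = col x true →
    (PresentedGroup.of x : PresentedGroup rels) * PresentedGroup.of x = 1 := by
  intro x hx
  cases x <;> first | exact cox_invol (by decide) | exact absurd hx (by decide)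

theorem hL : ∀ (x : ON.Gen) (c : Bool), Lp rels ncol letter hwf (col x c) =
    cond c (PresentedGroup.of x) (PresentedGroup.of x)⁻¹ :=
  hL_of hlet1 hlet2 hcol hinvol

theorem hSl : ∀ s ∈ cS, s ∈ Sl := by
  intro s hs
  simpa [Sl, cS] using hs
theorem hSl' : ∀ s ∈ Sl, s ∈ cS := by
  intro s hs
  simpa [Sl, cS] using hs

theorem hwfS : ∀ j, hwf j ∈ Subgroup.closure cS := by
  intro j
  unfold hwf
  rw [List.getD_eq_getElem?_getD]
  cases hj : hwL[j]? with
  | none => exact one_mem _
  | some s =>
    have : s ∈ hwL := List.mem_of_getElem? hj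
    refine Subgroup.subset_closure ?_
    simp only [hwL, List.mem_cons, List.not_mem_nil, or_false] at this
    

theorem hbase : ∀ b ∈ baseW, (b.map (Lp rels ncol letter hwf)).prod = 1 := by
  refine mkBase_prod hL hletter hybar hcol ?_ ?_
  · intro w hw
    have h := c_relW
    rw [List.all_eq_true] at h
    have h1 := h w hw
    simp only [List.any_eq_true, beq_iff_eq] at h1
    obtain ⟨r, hr, rfl⟩ := h1
    exact ⟨r, (mem_relList _ _ r).mp hr, rfl⟩
  · intro w hw
    have h := c_ps
    rw [List.all_eq_true] at h
    have h1 := h w hw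
    simp only [List.any_eq_true, beq_iff_eq] at h1
    obtain ⟨j, _, rfl⟩ := h1
    exact ⟨j, rfl⟩

theorem hletK : ∀ y ∈ hlet, Lp rels ncol letter hwf y ∈ (Subgroup.closure cS).map (PresentedGroup.mk rels) := by
  intro y hy
  have h := c_hlet
  rw [List.all_eq_true] at h
  have h1 := h y hy
  simp only [Bool.and_eq_true, List.contains_iff_mem] at h1
  obtain ⟨⟨h2, h3⟩, h4⟩ := h1
  unfold Lp
  rw [if_pos (blt_lt h2), h3]
  exact Subgroup.mem_map_of_mem _ (Subgroup.subset_closure (hSl' _ h4))

theorem hcc : ∀ g y, consCell cell stp cM g y = true := by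
  refine consCell_all (N := cN) (ncol := ncol) ?_ ?_
  · intro g y h
    have : cell g y = _ := mkCell_undef _ cN ncol _ g y h
    rw [this]
    decide
  · intro g hg y hy
    have h1 := hs_cell g hg
    rw [List.all_eq_true] at h1
    exact h1 y (List.mem_range.mpr hy)

theorem hce : ∀ g, consEps eps stp cM g = true := by
  refine consEps_all (N := cN) ?_ ?_
  · intro g h
    have : eps g = _ := mkEps_undef _ cN _ g h
    rw [this]
    decide
  · intro g hg
    exact hs_eps g hg

theorem hup : ((Subgroup.closure cS).map (PresentedGroup.mk rels)).index ≤ cn ∧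
    ((Subgroup.closure cS).map (PresentedGroup.mk rels)).index ≠ 0 :=
  index_upper (col := col) (letter := letter) (hwf := hwf) hL hcol hletter hwfS (T := T) (live := live)
    (by decide) hbase c_leaf hletK hs_step hcc hce (by decide +kernel)
    (hfin_of hs_fin)

theorem hbd : ∀ i, i < cn → ∀ y, y < ncol → T i y < cn := fun i hi y hy =>
  (hfin_of hs_fin i hi y hy).1

theorem tabRep : TabRep rels T col cn := by
  refine TabRep.of_checks (relL := relL) (chkW := chkW) (ncol := ncol) (letter := letter) (ybar := ybar)
    (fun r hr => (mem_relList _ _ r).mpr hr) hcol hletter hybar hbd ?_ ?_ ?_ hs_rel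
  · intro y hy
    have h := c_pairs
    rw [List.all_eq_true] at h
    simpa using h y (List.mem_range.mpr hy)
  · intro w hw y hy
    have h := c_lt
    rw [List.all_eq_true] at h
    have h1 := h w hw
    rw [List.all_eq_true] at h1
    exact blt_lt (h1 y hy)
  · intro r hr
    have h := c_cov
    rw [List.all_eq_true] at h
    have h1 := h r hr
    simp only [List.any_eq_true, List.mem_range, beq_iff_eq] at h1
    obtain ⟨w, hw, s, _, hs⟩ := h1
    exact ⟨w, hw, s, hs⟩

instance : NeZero cn := ⟨by decide⟩

theorem hSfix : ∀ s ∈ cS, walk T 0 (wordOf col s.toWord) = 0 := by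
  intro s hs
  have h := c_S
  rw [List.all_eq_true] at h
  have h1 := h s (hSl s hs)
  rw [walkR_eq] at h1
  exact Nat.eq_of_beq_eq_true h1

theorem hSW : ∀ s ∈ cS, wordOf col s.toWord ∈ SW ∧ wordOf col (s⁻¹).toWord ∈ SW :=
  hSW_of hSl c_sw1

theorem hSW' : ∀ w ∈ SW, ∃ s ∈ cS, w = wordOf col s.toWord ∨ w = wordOf col (s⁻¹).toWord :=
  hSW'_of hSl' c_sw2

theorem hdesc : ∀ i (_ : 0 < i) (hin : i < cn), ∃ g, (rhoT tabRep.hb tabRep.hi tabRep.hrel g ⟨i, hin⟩).1 < i :=
  hdesc_of_checks tabRep hletter hSW' hs_desc

/-- The index of the subgroup. -/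
theorem index_eq : ((Subgroup.closure cS).map (PresentedGroup.mk rels)).index = cn :=
  index_final tabRep.hb tabRep.hi tabRep.hrel hSfix hdesc hup

theorem orbit0 : ∃ q : PresentedGroup rels ⧸ ((Subgroup.closure cS).map (PresentedGroup.mk rels)),
    (MulAction.orbit ((Subgroup.closure cS).map (PresentedGroup.mk rels)) q).ncard = 58654 - 1 ∧
    ∀ q' ∈ MulAction.orbit ((Subgroup.closure cS).map (PresentedGroup.mk rels)) q,
      1 ≤ (phi _ (rhoT tabRep.hb tabRep.hi tabRep.hrel) q').1 ∧
        (phi _ (rhoT tabRep.hb tabRep.hi tabRep.hrel) q').1 < 58654 :=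
  orbit_final tabRep.hb tabRep.hi tabRep.hrel hSfix hdesc index_eq SW hSW hSW' 1 58654 (by decide) (by decide)
    (orbOK_cl hs_orb0 (by decide)) (orbOK_desc hs_orb0 (by decide))

theorem orbit1 : ∃ q : PresentedGroup rels ⧸ ((Subgroup.closure cS).map (PresentedGroup.mk rels)),
    (MulAction.orbit ((Subgroup.closure cS).map (PresentedGroup.mk rels)) q).ncard = 110790 - 58654 ∧
    ∀ q' ∈ MulAction.orbit ((Subgroup.closure cS).map (PresentedGroup.mk rels)) q,
      58654 ≤ (phi _ (rhoT tabRep.hb tabRep.hi tabRep.hrel) q').1 ∧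
        (phi _ (rhoT tabRep.hb tabRep.hi tabRep.hrel) q').1 < 110790 :=
  orbit_final tabRep.hb tabRep.hi tabRep.hrel hSfix hdesc index_eq SW hSW hSW' 58654 110790 (by decide) (by decide)
    (orbOK_cl hs_orb1 (by decide)) (orbOK_desc hs_orb1 (by decide))

theorem orbit2 : ∃ q : PresentedGroup rels ⧸ ((Subgroup.closure cS).map (PresentedGroup.mk rels)),
    (MulAction.orbit ((Subgroup.closure cS).map (PresentedGroup.mk rels)) q).ncard = 116376 - 110790 ∧
    ∀ q' ∈ MulAction.orbit ((Subgroup.closure cS).map (PresentedGroup.mk rels)) q,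
      110790 ≤ (phi _ (rhoT tabRep.hb tabRep.hi tabRep.hrel) q').1 ∧
        (phi _ (rhoT tabRep.hb tabRep.hi tabRep.hrel) q').1 < 116376 :=
  orbit_final tabRep.hb tabRep.hi tabRep.hrel hSfix hdesc index_eq SW hSW hSW' 110790 116376 (by decide) (by decide)
    (orbOK_cl hs_orb2 (by decide)) (orbOK_desc hs_orb2 (by decide))

theorem orbit3 : ∃ q : PresentedGroup rels ⧸ ((Subgroup.closure cS).map (PresentedGroup.mk rels)),
    (MulAction.orbit ((Subgroup.closure cS).map (PresentedGroup.mk rels)) q).ncard = 122760 - 116376 ∧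
    ∀ q' ∈ MulAction.orbit ((Subgroup.closure cS).map (PresentedGroup.mk rels)) q,
      116376 ≤ (phi _ (rhoT tabRep.hb tabRep.hi tabRep.hrel) q').1 ∧
        (phi _ (rhoT tabRep.hb tabRep.hi tabRep.hrel) q').1 < 122760 :=
  orbit_final tabRep.hb tabRep.hi tabRep.hrel hSfix hdesc index_eq SW hSW hSW' 116376 122760 (by decide) (by decide)
    (orbOK_cl hs_orb3 (by decide)) (orbOK_desc hs_orb3 (by decide))

end

end Cfsg.Agent.H07.CD.ONT
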