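import Mathlib
import Cfsg.Agent.Lib.H07.CD.ONTM
set_option autoImplicit false
set_option maxRecDepth 1000000
namespace Cfsg.Agent.H07.CD.ONT
open Cfsg.Agent.H07.Coset Cfsg.Spor
noncomputable section
theorem c_fin_25 : allR F_fin 12 (25 * 2 ^ 12) = true := by decide +kernel
theorem c_fin_26 : allR F_fin 12 (26 * 2 ^ 12) = true := by decide +kernel
theorem c_fin_27 : allR F_fin 12 (27 * 2 ^ 12) = true := by decide +kernel
theorem c_fin_28 : allR F_fin 12 (28 * 2 ^ 12) = true := by decide +kernel
theorem c_fin_29 : allR F_fin 12 (29 * 2 ^ 12) = true := by decide +kernel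
theorem c_rel_0 : allR F_rel 9 (0 * 2 ^ 9) = true := by decide +kernel
theorem c_rel_1 : allR F_rel 9 (1 * 2 ^ 9) = true := by decide +kernel
theorem c_rel_2 : allR F_rel 9 (2 * 2 ^ 9) = true := by decide +kernel
theorem c_rel_3 : allR F_rel 9 (3 * 2 ^ 9) = true := by decide +kernel

end

end Cfsg.Agent.H07.CD.ONT
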