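import Mathlib
import Cfsg.Agent.Lib.H07.CD.ONTM
set_option autoImplicit false
set_option maxRecDepth 1000000
namespace Cfsg.Agent.H07.CD.ONT
open Cfsg.Agent.H07.Coset Cfsg.Spor
noncomputable section
theorem c_rel_172 : allR F_rel 9 (172 * 2 ^ 9) = true := by decide +kernel
theorem c_rel_173 : allR F_rel 9 (173 * 2 ^ 9) = true := by decide +kernel
theorem c_rel_174 : allR F_rel 9 (174 * 2 ^ 9) = true := by decide +kernel
theorem c_rel_175 : allR F_rel 9 (175 * 2 ^ 9) = true := by decide +kernel
theorem c_rel_176 : allR F_rel 9 (176 * 2 ^ 9) = true := by decide +kernel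
theorem c_rel_177 : allR F_rel 9 (177 * 2 ^ 9) = true := by decide +kernel
theorem c_rel_178 : allR F_rel 9 (178 * 2 ^ 9) = true := by decide +kernel
theorem c_rel_179 : allR F_rel 9 (179 * 2 ^ 9) = true := by decide +kernel
theorem c_rel_180 : allR F_rel 9 (180 * 2 ^ 9) = true := by decide +kernel
theorem c_rel_181 : allR F_rel 9 (181 * 2 ^ 9) = true := by decide +kernel
theorem c_rel_182 : allR F_rel 9 (182 * 2 ^ 9) = true := by decide +kernel
theorem c_rel_183 : allR F_rel 9 (183 * 2 ^ 9) = true := by decide +kernel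

end

end Cfsg.Agent.H07.CD.ONT
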