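import Mathlib
import Cfsg.Agent.Lib.H07.CD.Suz1782M
set_option autoImplicit false
set_option maxRecDepth 1000000
namespace Cfsg.Agent.H07.CD.Suz1782
open Cfsg.Agent.H07.Coset Cfsg.Spor
noncomputable section


theorem c_step_0 : allR F_step 16 (0 * 2 ^ 16) = true := by decide +kernel
theorem c_cell_0 : allR F_cell 13 (0 * 2 ^ 13) = true := by decide +kernel
theorem c_eps_0 : allR F_eps 13 (0 * 2 ^ 13) = true := by decide +kernel
theorem c_fin_0 : allR F_fin 11 (0 * 2 ^ 11) = true := by decide +kernel
theorem c_rel_0 : allR F_rel 11 (0 * 2 ^ 11) = true := by decide +kernel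
theorem c_desc_0 : allR F_desc 11 (0 * 2 ^ 11) = true := by decide +kernel
theorem c_orb0_0 : allR F_orb0 11 (0 * 2 ^ 11) = true := by decide +kernel
theorem c_orb1_0 : allR F_orb1 11 (0 * 2 ^ 11) = true := by decide +kernel

end

end Cfsg.Agent.H07.CD.Suz1782
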