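import Mathlib
import Cfsg.Agent.Lib.H07.CD.SuzL4D
set_option autoImplicit false
set_option maxRecDepth 1000000
namespace Cfsg.Agent.H07.CD.SuzL4
open Cfsg.Agent.H07.Coset Cfsg.Spor
noncomputable section
namespace LP
inductive Gen
  | a
  | b
  | d
  deriving DecidableEq
abbrev a : FreeGroup Gen := FreeGroup.of Gen.a
abbrev b : FreeGroup Gen := FreeGroup.of Gen.b
abbrev d : FreeGroup Gen := FreeGroup.of Gen.d
def edges : List (Gen × ℕ × Gen) := [(.a, 5, .b), (.d, 2, .a)]
def extra : List (FreeGroup Gen) := [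
   ]
def iota : Gen → Suz.Gen
  | .a => .a
  | .b => .b
  | .d => .d
end LP

abbrev ncol : ℕ := 3
abbrev cM : ℕ := 60
abbrev cN : ℕ := 20
abbrev cn : ℕ := 20

def col : LP.Gen → Bool → ℕ
  | .a, true => 0
  | .a, false => 0
  | .b, true => 1
  | .b, false => 1
  | .d, true => 2
  | .d, false => 2

def letter : ℕ → LP.Gen × Bool
  | 0 => (.a, true)
  | 1 => (.b, true)
  | 2 => (.d, true)
  | _ => (.a, true)

def ybar : ℕ → ℕ
  | 0 => 0
  | 1 => 1
  | 2 => 2
  | y => y

abbrev rels : Set (FreeGroup LP.Gen) := coxRelators LP.edges ∪ {r | r ∈ LP.extra}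

abbrev relL : List (FreeGroup LP.Gen) := relList LP.edges LP.extra

def Sl : List (FreeGroup LP.Gen) := []

abbrev cS : Set (FreeGroup LP.Gen) := {}

def hwL : List (FreeGroup LP.Gen) := []

def hwf (j : ℕ) : FreeGroup LP.Gen := hwL.getD j 1

def relW : List (List ℕ) := [[0,1,0,1,0,1,0,1,0,1],[0,2,0,2],[1,2,1,2]]

def chkW : List (List ℕ) := [[0,0],[1,1],[2,2],[1,0,1,0,1,0,1,0,1,0],[2,0,2,0],[2,1,2,1]]

def psW : List (List ℕ) := []

def SW : List (List ℕ) := []

def hlet : List ℕ := []

def baseW : List (List ℕ) := mkBase ncol ybar relW psW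

def wordT : BT (List ℕ) := (BT.node (BT.node (BT.node (BT.node (BT.leaf [0,0]) (BT.leaf [2,1,2,1])) (BT.node (BT.leaf [1,0,1,0,1,0,1,0,1,0]) (BT.leaf [0,0]))) (BT.node (BT.node (BT.leaf [2,2]) (BT.leaf [0,0])) (BT.node (BT.leaf [2,0,2,0]) (BT.leaf [0,0])))) (BT.node (BT.node (BT.node (BT.leaf [1,1]) (BT.leaf [0,0])) (BT.node (BT.leaf [0,2,0,2]) (BT.leaf [0,0]))) (BT.node (BT.node (BT.leaf [0,1,0,1,0,1,0,1,0,1]) (BT.leaf [0,0])) (BT.node (BT.leaf [1,2,1,2]) (BT.leaf [0,0])))))

def cell : ℕ → ℕ → ℕ := mkCell (rdArr cellDT 31 6 2147483647 63) cN ncol 2147483647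
def eps : ℕ → ℕ := mkEps (rdArr epsDT 31 5 2147483647 31) cN 2147483647
def stp : ℕ → ℕ := rdArr stpDT 38 6 274877906943 63
def defs : ℕ → ℕ := rdArr defDT 13 5 8191 31
def T (i y : ℕ) : ℕ := rdArr tabDT 5 6 31 63 (Nat.add (Nat.mul i ncol) y)
def live : ℕ → ℕ := rdArr liveDT 5 5 31 31

theorem c_relW : relW.all (fun w => relL.any (fun r => w == fw col r)) = true := by decide +kernel
theorem c_ps : psW.all (fun w => (List.range 1).any (fun j => w == (ncol + 2 * j + 1) :: fw col (hwf j))) = true := by decide +kernel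
theorem c_cov : relL.all (fun r => chkW.any (fun w => (List.range w.length).any (fun s => wordOf col r.toWord == w.rotate s))) = true := by decide +kernel
theorem c_lt : chkW.all (fun w => w.all (fun y => Nat.blt y ncol)) = true := by decide +kernel
theorem c_pairs : (List.range ncol).all (fun y => chkW.contains [y, ybar y]) = true := by decide +kernel
theorem c_S : Sl.all (fun s => Nat.beq (walkR T (wordOf col s.toWord) 0) 0) = true := by decide +kernel
theorem c_hlet : hlet.all (fun y => Nat.blt y ncol && (letter y).2 && Sl.contains (FreeGroup.of (letter y).1)) = true := by decide +kernel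
theorem c_sw1 : Sl.all (fun s => SW.contains (wordOf col s.toWord) && SW.contains (wordOf col (s⁻¹).toWord)) = true := by decide +kernel
theorem c_sw2 : SW.all (fun w => Sl.any (fun s => w == wordOf col s.toWord || w == wordOf col (s⁻¹).toWord)) = true := by decide +kernel
theorem c_letter : (List.range ncol).all (fun y => Nat.beq (col (letter y).1 (letter y).2) y) = true := by decide +kernel

theorem c_leaf : BT.all (leafOK baseW) wordT = true := by decide +kernel
abbrev F_step : ℕ → Bool := guard cM (stepOK cell eps stp defs wordT.get ncol hlet)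
abbrev F_cell : ℕ → Bool := guard cN (fun g => (List.range ncol).all (fun y => consCell cell stp cM g y))
abbrev F_eps : ℕ → Bool := guard cN (consEps eps stp cM)
abbrev F_fin : ℕ → Bool := guard cn (finOK cell eps live T cM cn ncol)

end

end Cfsg.Agent.H07.CD.SuzL4
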